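import Cfsg.Agent.Lib.Helper43.Alt5

set_option autoImplicit false
set_option maxRecDepth 1000000
set_option maxHeartbeats 0

namespace Cfsg.Agent.Lib.Helper43.AM
open Cfsg Cfsg.Agent.Lib.Helper88.TC Cfsg.Agent.Lib.Helper43.SP Cfsg.Agent.Lib.Helper43.PT

universe u
open Subgroup Equiv

def TsC : List ℕ := [0x78, 0x9c, 0x36, 0x87, 0x2d, 0x63, 0xc9, 0xd2]

def relsC0 : List (List ℕ) := [[0, 0, 0], [2, 2, 2], [4, 4, 4], [2, 7, 0, 6], [3, 1, 6, 0], [4, 1, 2, 0], [7, 5, 2, 4]]

def relsC1 : List (List ℕ) := [[6, 6, 6]]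

noncomputable def stC0 : List (ℕ × ℕ × List ℕ) := parse2 (unpI 256 [0x680400400000600000380400700000600000580000700000580000600000880200400000780000400000700000380400500000580000100000780600600000800000400000300000280000600000480600500000300000280000500000580600400000380200400000780000300000580000200000380000100000580000000000180a000000001808000000001806000000001804000000001802000000001800000])

theorem parC0 : parOK 6 63 0 3 relsC0 = true := by decide +kernel

theorem finC0 : finOK 6 63 4 0 8 (run 6 63 4 0 relsC0 stC0 (initS 6 4 3)) = true := by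
  decide +kernel

noncomputable def stC1 : List (ℕ × ℕ × List ℕ) := parse2 (unpI 256 [0x380000100000180e00000000180c000])

theorem parC1 : parOK 5 31 3 4 relsC1 = true := by decide +kernel

theorem finC1 : finOK 5 31 4 3 3 (run 5 31 4 3 relsC1 stC1 (initS 5 4 4)) = true := by
  decide +kernel

theorem tc4 {Γ : Type u} [Group Γ] (Z : List Γ) (h : ∀ W ∈ relsC0 ++ relsC1, ev Z W = 1) :
    Nat.card (Kd Z 4 0) ≤ 2 * 12 := by
  have fe : Finite (Kd Z 4 4) := by rw [Kd_self]; infer_instance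
  obtain ⟨f1, c1⟩ := level_le (Y := Z) (fun W hW => h W (List.mem_append_right _ hW)) parC1 finC1
  obtain ⟨f0, c0⟩ := level_le (Y := Z) (fun W hW => h W (List.mem_append_left _ hW)) parC0 finC0
  have e : Nat.card (Kd Z 4 4) = 1 := by rw [Kd_self]; exact Subgroup.card_bot
  omega

theorem card4 : Nat.card (alternatingGroup (Fin 4)) = 12 := by
  rw [nat_card_alternatingGroup, Nat.card_fin]
  decide

theorem mem_alt_of_pow3 {n : ℕ} (y : Perm (Fin n)) (h : y ^ 3 = 1) : y ∈ alternatingGroup (Fin n) := by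
  rw [Equiv.Perm.mem_alternatingGroup]
  have h1 : (Perm.sign y) ^ 3 = 1 := by rw [← map_pow, h, map_one]
  rcases Int.units_eq_one_or (Perm.sign y) with h2 | h2
  · exact h2
  · rw [h2] at h1
    exact absurd h1 (by decide)

theorem pow3_of_ev {Γ : Type*} [Group Γ] (Y : List Γ) (k : ℕ)
    (h : ev Y [2 * k, 2 * k, 2 * k] = 1) : (Y.getD k 1) ^ 3 = 1 := by
  simp only [ev, one_mul, lt_even] at h
  have e : ∀ x : Γ, x ^ 3 = x * x * x := fun x => by simp only [pow_succ, pow_zero, one_mul]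
  rw [e, h]

theorem bound3 {Γ G : Type*} [Group Γ] [Group G] (σ : Γ →* G) (hσ : IsStemExtension σ) [Finite Γ] (Y : List G)
    {ng d : ℕ} (hY : Kd Y ng d = ⊤) (h5 : ∀ y ∈ Y, y ^ 3 = 1) (x : G) (hx : ¬ 3 ∣ (zpowers x).index)
    (rels : List (List ℕ)) (hshape : ∀ W ∈ rels, shp3 W = true) (hrel : ∀ W ∈ rels, ev Y W = 1) (N : ℕ)
    (hTC : ∀ Z : List Γ, (∀ W ∈ rels, ev Z W = 1) → Nat.card (Kd Z ng d) ≤ N) : Nat.card Γ ≤ N := by
  have D := CData.of_coprime hσ.1 hσ.2.1 (coprime_ker σ hσ Nat.prime_three x hx)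
  obtain ⟨Z, L⟩ := exists_lifts D Y h5
  have h := hTC Z (fun W hW => valid3 D L (hshape W hW) (hrel W hW))
  rw [L.Kd_top' hσ hY, Subgroup.card_top] at h
  exact h

theorem okC : allOK 2 3 4 TsC 0 4 = true := by decide +kernel

theorem brute4 : ∀ s : Perm (Fin 4), s ^ 3 = 1 → s ≠ 1 → ∃ k, k < 4 ∧
    (s = mkP 2 3 4 (nth 0 TsC (2 * k)) (nth 0 TsC (2 * k + 1)) ∨
      s = (mkP 2 3 4 (nth 0 TsC (2 * k)) (nth 0 TsC (2 * k + 1)))⁻¹) := by
  decide +kernel

theorem upper4 {Γ : Type u} [Group Γ] [Finite Γ] (σ : Γ →* alternatingGroup (Fin 4))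
    (hσ : IsStemExtension σ) : Nat.card σ.ker ≤ 2 := by
  classical
  set YS := YP 2 3 4 TsC 0 4 with hYS
  have powA : ∀ k, 0 ≤ k → k < 4 → eqT 2 3 4 TsC (2 * 0) (2 * 4) [2 * k, 2 * k, 2 * k] [] = true :=
    alN_range' (f := fun k => eqT 2 3 4 TsC (2 * 0) (2 * 4) [2 * k, 2 * k, 2 * k] []) (by decide +kernel)
  have relA : ∀ W ∈ relsC0 ++ relsC1, eqT 2 3 4 TsC (2 * 0) (2 * 4) W [] = true :=
    al_spec (f := fun W => eqT 2 3 4 TsC (2 * 0) (2 * 4) W []) (by decide +kernel)
  have hshape : ∀ W ∈ relsC0 ++ relsC1, shp3 W = true := al_spec (by decide +kernel)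
  have hne : neT 2 3 4 TsC (2 * 0) (2 * 4) [2 * 0] 1 = true := by decide +kernel
  have pS : ∀ k, 0 ≤ k → k < 4 → (YS.getD k 1) ^ 3 = 1 := fun k h1 h2 =>
    pow3_of_ev _ _ (relT_spec okC (powA k h1 h2))
  have pS' : ∀ y ∈ YS, y ^ 3 = 1 := by
    intro y hy
    rcases YP_mem hy with rfl | ⟨k, h1, h2, rfl⟩
    · exact one_pow 3
    · exact pS k h1 h2
  obtain ⟨YG, hYG⟩ := exists_sub_list (alternatingGroup (Fin 4)) YS
    (fun y hy => mem_alt_of_pow3 y (pS' y hy))
  have ned : YS.getD 0 1 ≠ 1 := by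
    have := neT_spec okC hne
    simpa only [ev, one_mul, lt_even] using this
  have genS : Kd YS 4 0 = alternatingGroup (Fin 4) := by
    apply le_antisymm
    · rw [Kd, closure_le]
      rintro _ ⟨k, h1, h2, rfl⟩
      exact mem_alt_of_pow3 _ (pS k h1 h2)
    · rw [← Equiv.Perm.closure_three_cycles_eq_alternating, closure_le]
      intro s hs
      have hs' : s.IsThreeCycle := hs
      have h3 : s ^ 3 = 1 := by
        rw [← hs'.orderOf]; exact pow_orderOf_eq_one s
      have h1 : s ≠ 1 := by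
        intro e
        have := hs'.orderOf
        rw [e, orderOf_one] at this
        omega
      obtain ⟨k, hk, h | h⟩ := brute4 s h3 h1
      · rw [h, ← YP_getD 2 3 4 TsC (Nat.zero_le k) hk]
        exact getD_mem_Kd _ (Nat.zero_le k) hk
      · rw [h, ← YP_getD 2 3 4 TsC (Nat.zero_le k) hk]
        exact inv_mem (getD_mem_Kd _ (Nat.zero_le k) hk)
  have genG : Kd YG 4 0 = ⊤ := by
    have h1 := Kd_map (alternatingGroup (Fin 4)).subtype YG 4 0
    rw [hYG, genS] at h1
    rw [eq_top_iff]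
    intro x _
    have hx : x.1 ∈ (Kd YG 4 0).map (alternatingGroup (Fin 4)).subtype := by rw [h1]; exact x.2
    obtain ⟨k, hk, e⟩ := hx
    have : k = x := Subtype.ext e
    exact this ▸ hk
  have evG : ∀ W W', ev YS W = ev YS W' → ev YG W = ev YG W' := by
    intro W W' h
    apply Subtype.ext
    have a := ev_map (alternatingGroup (Fin 4)).subtype YG W
    have b := ev_map (alternatingGroup (Fin 4)).subtype YG W'
    rw [hYG] at a b
    exact a.symm.trans (h.trans b)
  have pG : ∀ y ∈ YG, y ^ 3 = 1 := by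
    intro y hy
    apply Subtype.ext
    have : y.1 ∈ YS := by
      rw [← hYG]
      exact List.mem_map.2 ⟨y, hy, rfl⟩
    exact pS' _ this
  have relG : ∀ W ∈ relsC0 ++ relsC1, ev YG W = 1 := fun W hW => evG W [] (relT_spec okC (relA W hW))
  have hx3 : ¬ 3 ∣ (zpowers (YG.getD 0 1)).index := by
    have e1 : ((YG.getD 0 1 : alternatingGroup (Fin 4)) : Perm (Fin 4)) = YS.getD 0 1 := by
      have := getD_map (alternatingGroup (Fin 4)).subtype YG 0
      rw [hYG] at this
      exact this.symm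
    have e2 : (YG.getD 0 1) ^ 3 = 1 := by
      apply Subtype.ext
      show ((YG.getD 0 1 : alternatingGroup (Fin 4)) : Perm (Fin 4)) ^ 3 = 1
      rw [e1]; exact pS 0 le_rfl (by norm_num)
    have e3 : YG.getD 0 1 ≠ 1 := by
      intro h
      rw [h] at e1
      exact ned e1.symm
    have : Fact (Nat.Prime 3) := ⟨Nat.prime_three⟩
    have e4 : orderOf (YG.getD 0 1) = 3 := orderOf_eq_prime e2 e3
    have e5 := Subgroup.card_mul_index (zpowers (YG.getD 0 1))
    rw [Nat.card_zpowers, e4, card4] at e5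
    omega
  have h1 := bound3 σ hσ YG genG pG (YG.getD 0 1) hx3 (relsC0 ++ relsC1) hshape relG (2 * 12) tc4
  rw [card_eq_card_mul_ker σ hσ.1, card4] at h1
  omega

end Cfsg.Agent.Lib.Helper43.AM
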