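import Cfsg.Agent.Lib.Helper43.AltLev
import Cfsg.Agent.Lib.Helper43.Alt8

set_option autoImplicit false
set_option maxRecDepth 1000000
set_option maxHeartbeats 0

namespace Cfsg.Agent.Lib.Helper43.AM
open Cfsg Cfsg.Agent.Lib.Helper88.TC Cfsg.Agent.Lib.Helper43.SP Cfsg.Agent.Lib.Helper43.PT

universe u

theorem tc5 {Γ : Type u} [Group Γ] (Z : List Γ) (h : ∀ W ∈ rels2 ++ rels3, ev Z W = 1) :
    Nat.card (Kd Z 126 120) ≤ 2 * 60 := by
  have fe : Finite (Kd Z 126 126) := by rw [Kd_self]; infer_instance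
  obtain ⟨f3, c3⟩ := level_le (Y := Z) (fun W hW => h W (List.mem_append_right _ hW)) par3 fin3
  obtain ⟨f2, c2⟩ := level_le (Y := Z) (fun W hW => h W (List.mem_append_left _ hW)) par2 fin2
  have e : Nat.card (Kd Z 126 126) = 1 := by rw [Kd_self]; exact Subgroup.card_bot
  omega

theorem card5 : Nat.card (alternatingGroup (Fin (4 + 1))) = 60 := by
  rw [nat_card_alternatingGroup, Nat.card_fin]
  decide

theorem upper5 {Γ : Type u} [Group Γ] [Finite Γ] (σ : Γ →* alternatingGroup (Fin (4 + 1)))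
    (hσ : IsStemExtension σ) : Nat.card σ.ker ≤ 2 :=
  upper_alt TsA cert 3 7 4 120 126 60 2 0 (by norm_num) (by norm_num) card5 (by intro i h; omega)
    (by decide +kernel) (by decide +kernel) (rels2 ++ rels3) (al_spec (by decide +kernel))
    (al_spec (f := fun W => eqT 3 7 (4 + 1) TsA (2 * 120) (2 * 126) W []) (by decide +kernel))
    (alN_range' (f := fun k => eqT 3 7 (4 + 1) TsA (2 * 120) (2 * 126) [2 * k, 2 * k, 2 * k, 2 * k, 2 * k] [])
      (by decide +kernel))
    (by decide +kernel) (by decide +kernel) (by decide +kernel) tc5 σ hσ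

end Cfsg.Agent.Lib.Helper43.AM
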