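import Cfsg.Agent.Lib.Helper10.Mult3b

/-!
The induction step for the bound of the kernels of the stem extensions of the alternating groups.
-/

set_option autoImplicit false

namespace Cfsg.Agent.Lib.Helper43.AI
open Cfsg Subgroup Equiv MulAction Cfsg.Agent.Lib.Helper10
open scoped commutatorElement

universe u

section fix
variable {α : Type} [Fintype α] [DecidableEq α] (pr : α → Prop) [DecidablePred pr]

/-- the embedding of the alternating group of a subset. -/
noncomputable def jj : alternatingGroup {x // pr x} →* alternatingGroup α :=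
  ((Perm.ofSubtype).comp (alternatingGroup {x // pr x}).subtype).codRestrict (alternatingGroup α) (fun g => by
    rw [Perm.mem_alternatingGroup, MonoidHom.comp_apply, Perm.sign_ofSubtype]
    exact g.2)

theorem jj_val (g : alternatingGroup {x // pr x}) : (jj pr g).1 = Perm.ofSubtype g.1 := rfl

theorem jj_injective : Function.Injective (jj pr) := by
  intro a b h
  have h1 : Perm.ofSubtype a.1 = Perm.ofSubtype b.1 := congrArg Subtype.val h
  exact Subtype.ext (Perm.ofSubtype_injective h1)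

theorem mem_range_jj (g : alternatingGroup α) : g ∈ (jj pr).range ↔ ∀ x, ¬ pr x → g.1 x = x := by
  constructor
  · rintro ⟨h, rfl⟩ x hx
    rw [jj_val]
    exact Perm.ofSubtype_apply_of_not_mem _ hx
  · intro h
    have h₂ : ∀ x, g.1 x ≠ x → pr x := by
      intro x hx
      by_contra hp
      exact hx (h x hp)
    have h₁ : ∀ x, pr (g.1 x) ↔ pr x := by
      intro x
      constructor
      · intro h1
        by_contra hp
        rw [h x hp] at h1
        exact hp h1
      · intro h1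
        by_contra hp
        have h2 := h _ hp
        have h3 : g.1 x = x := g.1.injective h2
        rw [h3] at hp
        exact hp h1
    refine ⟨⟨Perm.subtypePerm g.1 h₁, ?_⟩, ?_⟩
    · rw [Perm.mem_alternatingGroup, Perm.sign_subtypePerm _ h₁ h₂]
      exact g.2
    · apply Subtype.ext
      rw [jj_val]
      exact Perm.ofSubtype_subtypePerm h₁ h₂

theorem eq_range_jj (M : Subgroup (alternatingGroup α)) (hM : ∀ g, g ∈ M ↔ ∀ x, ¬ pr x → g.1 x = x) :
    M = (jj pr).range := by
  ext g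
  rw [hM, mem_range_jj]

theorem perfect_fix (M : Subgroup (alternatingGroup α)) (hM : ∀ g, g ∈ M ↔ ∀ x, ¬ pr x → g.1 x = x)
    (h5 : 5 ≤ Nat.card {x // pr x}) : M ≤ ⁅M, M⁆ := by
  rw [eq_range_jj pr M hM, MonoidHom.range_eq_map, ← map_commutator, ← commutator_def,
    commutator_alternatingGroup_eq_top h5]

theorem exists_equiv_fix (M : Subgroup (alternatingGroup α)) (hM : ∀ g, g ∈ M ↔ ∀ x, ¬ pr x → g.1 x = x)
    (k : ℕ) (hk : Fintype.card {x // pr x} = k) : Nonempty (M ≃* alternatingGroup (Fin k)) := by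
  have e1 : M ≃* (jj pr).range := MulEquiv.subgroupCongr (eq_range_jj pr M hM)
  have e2 : alternatingGroup {x // pr x} ≃* (jj pr).range := MonoidHom.ofInjective (jj_injective pr)
  exact ⟨e1.trans (e2.symm.trans (Equiv.altCongrHom (Fintype.equivFinOfCardEq hk)))⟩

end fix

section trans
variable (n : ℕ)

theorem t3 (hn : 5 ≤ n) (a b c a' b' c' : Fin n) (hab : a ≠ b) (hac : a ≠ c) (hbc : b ≠ c) (hab' : a' ≠ b')
    (hac' : a' ≠ c') (hbc' : b' ≠ c') :
    ∃ g : alternatingGroup (Fin n), g • a = a' ∧ g • b = b' ∧ g • c = c' := by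
  have h0 := alternatingGroup.isMultiplyPretransitive (Fin n)
  have hc : Nat.card (Fin n) = n := Nat.card_fin n
  have h1 : IsMultiplyPretransitive (alternatingGroup (Fin n)) (Fin n) 3 :=
    isMultiplyPretransitive_of_le (n := Nat.card (Fin n) - 2) (by omega) (by omega)
  let x : Fin 3 ↪ Fin n := ⟨![a, b, c], by
    intro i j h
    fin_cases i <;> fin_cases j <;> simp_all⟩
  let y : Fin 3 ↪ Fin n := ⟨![a', b', c'], by
    intro i j h
    fin_cases i <;> fin_cases j <;> simp_all⟩
  obtain ⟨g, hg⟩ := exists_smul_eq (alternatingGroup (Fin n)) x y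
  exact ⟨g, congrArg (fun f : Fin 3 ↪ Fin n => f 0) hg, congrArg (fun f : Fin 3 ↪ Fin n => f 1) hg,
    congrArg (fun f : Fin 3 ↪ Fin n => f 2) hg⟩

theorem t2 (hn : 5 ≤ n) (a b a' b' : Fin n) (hab : a ≠ b) (hab' : a' ≠ b') :
    ∃ g : alternatingGroup (Fin n), g • a = a' ∧ g • b = b' := by
  have h0 := alternatingGroup.isMultiplyPretransitive (Fin n)
  have hc : Nat.card (Fin n) = n := Nat.card_fin n
  have h1 : IsMultiplyPretransitive (alternatingGroup (Fin n)) (Fin n) 2 :=
    isMultiplyPretransitive_of_le (n := Nat.card (Fin n) - 2) (by omega) (by omega)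
  let x : Fin 2 ↪ Fin n := ⟨![a, b], by
    intro i j h
    fin_cases i <;> fin_cases j <;> simp_all⟩
  let y : Fin 2 ↪ Fin n := ⟨![a', b'], by
    intro i j h
    fin_cases i <;> fin_cases j <;> simp_all⟩
  obtain ⟨g, hg⟩ := exists_smul_eq (alternatingGroup (Fin n)) x y
  exact ⟨g, congrArg (fun f : Fin 2 ↪ Fin n => f 0) hg, congrArg (fun f : Fin 2 ↪ Fin n => f 1) hg⟩

end trans

/-- the kernels of the stem extensions have at most `c` elements. -/
def Bd (G : Type) [Group G] (c : ℕ) : Prop :=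
  ∀ (Γ : Type u) [Group Γ] [Finite Γ] (σ : Γ →* G), IsStemExtension σ → Nat.card σ.ker ≤ c

theorem Bd.congr {G G' : Type} [Group G] [Group G'] {c : ℕ} (h : Bd.{u} G c) (ι : G' ≃* G) : Bd.{u} G' c := by
  intro Γ _ _ σ hσ
  have e : (ι.toMonoidHom.comp σ).ker = σ.ker := by
    ext x
    rw [MonoidHom.mem_ker, MonoidHom.mem_ker]
    show ι (σ x) = 1 ↔ _
    rw [MulEquiv.map_eq_one_iff]
  have h1 : IsStemExtension (ι.toMonoidHom.comp σ) :=
    ⟨ι.surjective.comp hσ.1, by rw [e]; exact hσ.2.1, by rw [e]; exact hσ.2.2⟩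
  have := h Γ _ h1
  rwa [e] at this

theorem step (n c : ℕ) (hn : 7 ≤ n) (h : Bd.{u} (alternatingGroup (Fin n)) c) :
    Bd.{u} (alternatingGroup (Fin (n + 1))) c := by
  intro Γ _ _ σ hσ
  have hr : σ.range = ⊤ := MonoidHom.range_eq_top.2 hσ.1
  have sm : ∀ (g : alternatingGroup (Fin (n + 1))) (x : Fin (n + 1)), g • x = g.1 x := fun _ _ => rfl
  -- point stabilisers
  have hM : ∀ p : Fin (n + 1), ∀ g, g ∈ Mst σ p ↔ ∀ x, ¬ (x ≠ p) → g.1 x = x := by
    intro p g
    rw [Subgroup.mem_inf, hr, mem_stabilizer_iff, sm]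
    constructor
    · rintro ⟨_, h1⟩ x hx
      rw [not_not] at hx
      rw [hx, h1]
    · intro h1
      exact ⟨mem_top _, h1 p (by simp)⟩
  have hc1 : ∀ p : Fin (n + 1), Fintype.card {x // x ≠ p} = n := by
    intro p
    rw [Fintype.card_subtype_compl, Fintype.card_fin, Fintype.card_subtype_eq]
    rfl
  have hD : ∀ p q : Fin (n + 1), ∀ g, g ∈ Dst σ p q ↔ ∀ x, ¬ (x ≠ p ∧ x ≠ q) → g.1 x = x := by
    intro p q g
    rw [Subgroup.mem_inf, Subgroup.mem_inf, hr, mem_stabilizer_iff, mem_stabilizer_iff, sm, sm]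
    constructor
    · rintro ⟨_, h1, h2⟩ x hx
      by_cases hxp : x = p
      · rw [hxp, h1]
      · have hxq : x = q := by
          by_contra hq
          exact hx ⟨hxp, hq⟩
        rw [hxq, h2]
    · intro h1
      exact ⟨mem_top _, h1 p (by simp), h1 q (by simp)⟩
  have hc2 : ∀ p q : Fin (n + 1), p ≠ q → Fintype.card {x // x ≠ p ∧ x ≠ q} = n - 1 := by
    intro p q hpq
    have h1 : Fintype.card {x : Fin (n + 1) // x ≠ p ∧ x ≠ q} =
        (Finset.univ.filter fun x : Fin (n + 1) => x ≠ p ∧ x ≠ q).card := Fintype.card_subtype _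
    have h2 : (Finset.univ.filter fun x : Fin (n + 1) => x ≠ p ∧ x ≠ q) = (Finset.univ.erase p).erase q := by
      ext x
      simp only [Finset.mem_filter, Finset.mem_univ, true_and, Finset.mem_erase, and_true]
      tauto
    rw [h1, h2, Finset.card_erase_of_mem (by simp [hpq.symm]), Finset.card_erase_of_mem (by simp),
      Finset.card_univ, Fintype.card_fin]
    omega
  have hlift : ∀ p : Fin (n + 1), ∀ γ : Γ, σ γ • p = p → ∃ a ∈ Lf σ p, σ a = σ γ := by
    intro p
    apply lift_of_perfect σ p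
    apply perfect_fix (fun x => x ≠ p) _ (hM p)
    rw [Nat.card_eq_fintype_card, hc1]
    omega
  have D : T3Data σ (Set.univ : Set (Fin (n + 1))) :=
    { central := hσ.2.1
      stem := hσ.2.2
      inv := fun _ _ _ => Set.mem_univ _
      t2 := by
        intro a _ b _ hab a' _ b' _ hab'
        obtain ⟨g, h1, h2⟩ := t2 (n + 1) (by omega) a b a' b' hab hab'
        obtain ⟨γ, rfl⟩ := hσ.1 g
        exact ⟨γ, h1, h2⟩
      t3 := by
        intro a _ b _ c _ hab hac hbc a' _ b' _ c' _ hab' hac' hbc'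
        obtain ⟨g, h1, h2, h3⟩ := t3 (n + 1) (by omega) a b c a' b' c' hab hac hbc hab' hac' hbc'
        obtain ⟨γ, rfl⟩ := hσ.1 g
        exact ⟨γ, h1, h2, h3⟩
      lift := fun p _ => hlift p }
  let p1 : Fin (n + 1) := ⟨0, by omega⟩
  let p2 : Fin (n + 1) := ⟨1, by omega⟩
  let p3 : Fin (n + 1) := ⟨2, by omega⟩
  let p4 : Fin (n + 1) := ⟨3, by omega⟩
  have ne : ∀ {i j : ℕ} (hi : i < n + 1) (hj : j < n + 1), i ≠ j → (⟨i, hi⟩ : Fin (n + 1)) ≠ ⟨j, hj⟩ := by
    intro i j hi hj hij e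
    exact hij (congrArg Fin.val e)
  have hker : σ.ker ≤ Lf σ p1 := by
    apply D.ker_le_Lf (p1 := p1) (p2 := p2) (p3 := p3) (p4 := p4) (Set.mem_univ _) (Set.mem_univ _) (Set.mem_univ _)
      (Set.mem_univ _) (ne _ _ (by norm_num)) (ne _ _ (by norm_num)) (ne _ _ (by norm_num)) (ne _ _ (by norm_num))
      (ne _ _ (by norm_num)) (ne _ _ (by norm_num))
    apply perfect_fix (fun x => x ≠ p1 ∧ x ≠ p2) _ (hD p1 p2)
    rw [Nat.card_eq_fintype_card, hc2 p1 p2 (ne _ _ (by norm_num))]
    omega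
  have hst := resL_stem hσ.2.1 (hlift p1)
  obtain ⟨ι⟩ := exists_equiv_fix (fun x => x ≠ p1) (Mst σ p1) (hM p1) n (hc1 p1)
  have hb := (h.congr ι) (Lf σ p1) (resL σ p1) hst
  refine le_trans ?_ hb
  let f : σ.ker → (resL σ p1).ker := fun z => ⟨⟨z.1, hker z.2⟩, by
    rw [MonoidHom.mem_ker]
    apply Subtype.ext
    rw [resL_val]
    exact z.2⟩
  apply Nat.card_le_card_of_injective f
  intro a b hab
  apply Subtype.ext
  exact congrArg (fun z : (resL σ p1).ker => z.1.1) hab

end Cfsg.Agent.Lib.Helper43.AI
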