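import Cfsg.Agent.Lib.Helper43.SchurPres5
import Cfsg.Agent.Lib.Helper41.SchurCore

/-!
The Schur multiplier of an alternating group from kernel-checkable data: a presentation on elements of order five
and a permutation model of the sixfold cover.
-/

set_option autoImplicit false

namespace Cfsg.Agent.Lib.Helper43.AM
open Cfsg Cfsg.Agent.Lib.Helper88.TC Cfsg.Agent.Lib.Helper43.SP Cfsg.Agent.Lib.Helper43.PT Subgroup Equiv

theorem mem_alt_of_pow5 {n : ℕ} (y : Perm (Fin n)) (h : y ^ 5 = 1) : y ∈ alternatingGroup (Fin n) := by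
  rw [Equiv.Perm.mem_alternatingGroup]
  have h1 : (Perm.sign y) ^ 5 = 1 := by rw [← map_pow, h, map_one]
  rcases Int.units_eq_one_or (Perm.sign y) with h2 | h2
  · exact h2
  · rw [h2] at h1
    exact absurd h1 (by decide)

theorem pow5_of_ev {Γ : Type*} [Group Γ] (Y : List Γ) (k : ℕ)
    (h : ev Y [2 * k, 2 * k, 2 * k, 2 * k, 2 * k] = 1) : (Y.getD k 1) ^ 5 = 1 := by
  simp only [ev, one_mul, lt_even] at h
  have e : ∀ x : Γ, x ^ 5 = x * x * x * x * x := fun x => by simp only [pow_succ, pow_zero, one_mul]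
  rw [e, h]

theorem Kd_YP_add (w m N : ℕ) (Ts : List ℕ) (d ng ns : ℕ) :
    Kd (YP w m N Ts d (ng + ns)) ng d = Kd (YP w m N Ts d ng) ng d := by
  rw [Kd, Kd]
  congr 1
  ext g
  constructor
  · rintro ⟨k, h1, h2, rfl⟩
    exact ⟨k, h1, h2, by rw [YP_getD _ _ _ _ h1 h2, YP_getD _ _ _ _ h1 (by omega)]⟩
  · rintro ⟨k, h1, h2, rfl⟩
    exact ⟨k, h1, h2, by rw [YP_getD _ _ _ _ h1 h2, YP_getD _ _ _ _ h1 (by omega)]⟩

/-- the last `ns` permutations normalise the group generated by the permutations number `d, ..., ng - 1`. -/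
noncomputable def nrmOK (w m N : ℕ) (Ts : List ℕ) (d ng ns : ℕ) (cert : List (List ℕ)) : Bool :=
  alN (fun j => alN (fun k => Nat.blt k d ||
    (inR (2 * d) (2 * ng) (nth [] cert (j * ng + k)) &&
      eqT w m N Ts (2 * d) (2 * (ng + ns)) [2 * (ng + j) + 1, 2 * k, 2 * (ng + j)] (nth [] cert (j * ng + k)))) ng) ns

theorem nrmOK_spec {w m N : ℕ} {Ts : List ℕ} {d ng ns : ℕ} {cert : List (List ℕ)}
    (h : allOK w m N Ts d (ng + ns) = true) (hn : nrmOK w m N Ts d ng ns cert = true) {j k : ℕ} (hj : j < ns)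
    (h1 : d ≤ k) (h2 : k < ng) :
    (YP w m N Ts d (ng + ns)).getD (ng + j) 1 * (YP w m N Ts d (ng + ns)).getD k 1 *
      ((YP w m N Ts d (ng + ns)).getD (ng + j) 1)⁻¹ ∈ Kd (YP w m N Ts d (ng + ns)) ng d := by
  have h3 := alN_spec (alN_spec hn j hj) k h2
  rw [Bool.or_eq_true, Nat.blt_eq, Bool.and_eq_true] at h3
  rcases h3 with h3 | h3
  · omega
  · have e := eqT_spec h h3.2
    simp only [ev, one_mul, lt_even, lt_odd] at e
    rw [e]
    exact ev_mem_Kd _ _ (inR_spec h3.1)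

/-- the stem extension given by a model. -/
theorem model_part {G M : Type} [Group G] [Group M] [Finite M] [Finite G] (YG : List G) (YM : List M) (ng d g : ℕ)
    (lenG : YG.length = ng) (lenM : YM.length = ng) (genG : Kd YG ng d = ⊤) (hperf : commutator G = ⊤)
    (hg : Nat.card G = g) (rels : List (List ℕ)) (relG : ∀ W ∈ rels, ev YG W = 1) (relM : ∀ W ∈ rels, ev YM W = 1)
    (powG : ∀ k, d ≤ k → k < ng → (YG.getD k 1) ^ 5 = 1) (powM : ∀ k, d ≤ k → k < ng → (YM.getD k 1) ^ 5 = 1)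
    (hTC : ∀ (Γ : Type) [Group Γ] (Z : List Γ), (∀ W ∈ rels, ev Z W = 1) → Nat.card (Kd Z ng d) ≤ 6 * g)
    (Wc : List ℕ) (hWc : ∀ l ∈ Wc, 2 * d ≤ l ∧ l < 2 * ng) (hcG : ev YG Wc = 1)
    (c2 : ev YM (Wc ++ Wc) ≠ 1) (c3 : ev YM (Wc ++ Wc ++ Wc) ≠ 1)
    (c6 : ev YM (Wc ++ Wc ++ Wc ++ (Wc ++ Wc ++ Wc)) = 1)
    (ccomm : ∀ k, d ≤ k → k < ng → ev YM (Wc ++ [2 * k]) = ev YM ([2 * k] ++ Wc)) :
    ∃ (Γ₀ : Type) (_ : Group Γ₀) (_ : Finite Γ₀) (σ₀ : Γ₀ →* G),
      IsStemExtension σ₀ ∧ Nonempty (σ₀.ker ≃* Multiplicative (ZMod 6)) := by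
  set P := YM.zip YG with hP
  have P1 : P.map (MonoidHom.fst M G) = YM := List.map_fst_zip (by rw [lenM, lenG])
  have P2 : P.map (MonoidHom.snd M G) = YG := List.map_snd_zip (by rw [lenM, lenG])
  have evP1 : ∀ W, (ev P W).1 = ev YM W := by
    intro W
    have a := ev_map (MonoidHom.fst M G) P W
    rw [P1] at a
    exact a.symm
  have evP2 : ∀ W, (ev P W).2 = ev YG W := by
    intro W
    have a := ev_map (MonoidHom.snd M G) P W
    rw [P2] at a
    exact a.symm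
  have gP1 : ∀ k, (P.getD k 1).1 = YM.getD k 1 := by
    intro k
    have a := getD_map (MonoidHom.fst M G) P k
    rw [P1] at a
    exact a.symm
  have gP2 : ∀ k, (P.getD k 1).2 = YG.getD k 1 := by
    intro k
    have a := getD_map (MonoidHom.snd M G) P k
    rw [P2] at a
    exact a.symm
  have evP : ∀ W W', ev YM W = ev YM W' → ev YG W = ev YG W' → ev P W = ev P W' := by
    intro W W' h1 h2
    apply Prod.ext
    · rw [evP1, evP1, h1]
    · rw [evP2, evP2, h2]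
  have relP : ∀ W ∈ rels, ev P W = 1 := fun W hW => evP W [] (relM W hW) (relG W hW)
  let σ₀ : (Kd P ng d) →* G := (MonoidHom.snd M G).comp (Kd P ng d).subtype
  have hs : Function.Surjective σ₀ := by
    intro x
    have h1 := Kd_map (MonoidHom.snd M G) P ng d
    rw [P2, genG] at h1
    have hx : x ∈ (Kd P ng d).map (MonoidHom.snd M G) := by
      rw [h1]; trivial
    obtain ⟨p, hp, e⟩ := hx
    exact ⟨⟨p, hp⟩, e⟩
  have hcard : Nat.card (Kd P ng d) ≤ 6 * Nat.card G := by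
    rw [hg]
    exact hTC _ P relP
  have hS : closure (((↑) : Kd P ng d → M × G) ⁻¹' {x | ∃ k, d ≤ k ∧ k < ng ∧ x = P.getD k 1}) = ⊤ :=
    Subgroup.closure_closure_coe_preimage
  have h5 : ∀ z ∈ (((↑) : Kd P ng d → M × G) ⁻¹' {x | ∃ k, d ≤ k ∧ k < ng ∧ x = P.getD k 1}), z ^ 5 = 1 := by
    rintro z ⟨k, h1, h2, hz⟩
    apply Subtype.ext
    show z.1 ^ 5 = 1
    rw [hz]
    apply Prod.ext
    · rw [Prod.pow_fst, gP1, powM k h1 h2]; rfl
    · rw [Prod.pow_snd, gP2, powG k h1 h2]; rfl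
  have hc : σ₀ ⟨ev P Wc, ev_mem_Kd P Wc hWc⟩ = 1 := by
    show (ev P Wc).2 = 1
    rw [evP2, hcG]
  have hc2 : (⟨ev P Wc, ev_mem_Kd P Wc hWc⟩ : Kd P ng d) ^ 2 ≠ 1 := by
    intro h
    have h1 : (ev P Wc) ^ 2 = 1 := congrArg Subtype.val h
    have h2 : (ev YM Wc) ^ 2 = 1 := by
      rw [← evP1, ← Prod.pow_fst, h1]; rfl
    apply c2
    rw [ev_append, ← pow_two, h2]
  have hc3 : (⟨ev P Wc, ev_mem_Kd P Wc hWc⟩ : Kd P ng d) ^ 3 ≠ 1 := by
    intro h
    have h1 : (ev P Wc) ^ 3 = 1 := congrArg Subtype.val h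
    have h2 : (ev YM Wc) ^ 3 = 1 := by
      rw [← evP1, ← Prod.pow_fst, h1]; rfl
    apply c3
    rw [ev_append, ev_append, ← h2]
    simp only [pow_succ, pow_zero, one_mul, mul_assoc]
  have hc6 : (⟨ev P Wc, ev_mem_Kd P Wc hWc⟩ : Kd P ng d) ^ 6 = 1 := by
    apply Subtype.ext
    show (ev P Wc) ^ 6 = 1
    have h1 : ev P (Wc ++ Wc ++ Wc ++ (Wc ++ Wc ++ Wc)) = 1 := by
      apply evP _ [] c6
      simp only [ev_append, hcG, mul_one]
      rfl
    rw [← h1]
    simp only [ev_append, pow_succ, pow_zero, one_mul, mul_assoc]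
  have hcomm : ∀ z ∈ (((↑) : Kd P ng d → M × G) ⁻¹' {x | ∃ k, d ≤ k ∧ k < ng ∧ x = P.getD k 1}),
      (⟨ev P Wc, ev_mem_Kd P Wc hWc⟩ : Kd P ng d) * z = z * ⟨ev P Wc, ev_mem_Kd P Wc hWc⟩ := by
    rintro z ⟨k, h1, h2, hz⟩
    apply Subtype.ext
    show ev P Wc * z.1 = z.1 * ev P Wc
    rw [hz]
    have h3 : ev P (Wc ++ [2 * k]) = ev P ([2 * k] ++ Wc) := by
      apply evP _ _ (ccomm k h1 h2)
      rw [ev_append, ev_append, hcG, mul_one, one_mul]
    rw [ev_append, ev_append] at h3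
    simp only [ev, one_mul, lt_even] at h3
    exact h3.symm
  exact ⟨Kd P ng d, inferInstance, inferInstance, σ₀, stem_of_model σ₀ hs hperf _ hS h5 hcard _ hc hc2 hc3 hc6 hcomm⟩

section main
variable (TsA TsM : List ℕ) (Wc : List ℕ) (cert : List (List ℕ))

theorem main (mm d g i0 i2 i3 : ℕ) (h5 : 5 ≤ mm + 1) (hd : d ≤ 125)
    (hg : Nat.card (alternatingGroup (Fin (mm + 1))) = g) (hg5 : ∀ i, 5 * i = g → ¬ 5 ∣ i)
    (okX : allOK 3 7 (mm + 1) TsA d (126 + mm) = true)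
    (okA : allOK 3 7 (mm + 1) TsA d 126 = true)
    (okM : allOK 9 511 285 TsM d 126 = true)
    (rels : List (List ℕ))
    (hshape : ∀ W ∈ rels, shp5 W = true)
    (relA : ∀ W ∈ rels, eqT 3 7 (mm + 1) TsA (2 * d) (2 * 126) W [] = true)
    (relM : ∀ W ∈ rels, eqT 9 511 285 TsM (2 * d) (2 * 126) W [] = true)
    (powA : ∀ k, d ≤ k → k < 126 →
      eqT 3 7 (mm + 1) TsA (2 * d) (2 * 126) [2 * k, 2 * k, 2 * k, 2 * k, 2 * k] [] = true)
    (powM : ∀ k, d ≤ k → k < 126 →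
      eqT 9 511 285 TsM (2 * d) (2 * 126) [2 * k, 2 * k, 2 * k, 2 * k, 2 * k] [] = true)
    (hTC : ∀ (Γ : Type) [Group Γ] (Z : List Γ), (∀ W ∈ rels, ev Z W = 1) → Nat.card (Kd Z 126 d) ≤ 6 * g)
    (nrm : nrmOK 3 7 (mm + 1) TsA d 126 mm cert = true)
    (hsw : ∀ j : Fin mm, swap j.castSucc j.succ =
      mkP 3 7 (mm + 1) (nth 0 TsA (2 * (126 + j.1))) (nth 0 TsA (2 * (126 + j.1) + 1)))
    (cA : eqT 3 7 (mm + 1) TsA (2 * d) (2 * 126) Wc [] = true)
    (c2 : neT 9 511 285 TsM (2 * d) (2 * 126) (Wc ++ Wc) i2 = true)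
    (c3 : neT 9 511 285 TsM (2 * d) (2 * 126) (Wc ++ Wc ++ Wc) i3 = true)
    (c6 : eqT 9 511 285 TsM (2 * d) (2 * 126) (Wc ++ Wc ++ Wc ++ (Wc ++ Wc ++ Wc)) [] = true)
    (ccomm : ∀ k, d ≤ k → k < 126 → eqT 9 511 285 TsM (2 * d) (2 * 126) (Wc ++ [2 * k]) ([2 * k] ++ Wc) = true)
    (hne : neT 3 7 (mm + 1) TsA (2 * d) (2 * 126) [2 * 125] i0 = true) :
    HasCyclicSchurMultiplier (alternatingGroup (Fin (mm + 1))) 6 := by
  classical
  set YS := YP 3 7 (mm + 1) TsA d 126 with hYS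
  set YM := YP 9 511 285 TsM d 126 with hYM
  have pS : ∀ k, d ≤ k → k < 126 → (YS.getD k 1) ^ 5 = 1 := fun k h1 h2 =>
    pow5_of_ev _ _ (relT_spec okA (powA k h1 h2))
  have pS' : ∀ y ∈ YS, y ^ 5 = 1 := by
    intro y hy
    rcases YP_mem hy with rfl | ⟨k, h1, h2, rfl⟩
    · exact one_pow 5
    · exact pS k h1 h2
  obtain ⟨YG, hYG⟩ := exists_sub_list (alternatingGroup (Fin (mm + 1))) YS
    (fun y hy => mem_alt_of_pow5 y (pS' y hy))
  have ne125 : YS.getD 125 1 ≠ 1 := by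
    have := neT_spec okA hne
    simpa only [ev, one_mul, lt_even] using this
  -- generation
  have hnormal : (Kd YS 126 d).Normal := by
    apply normal_of_gens _ (Set.range fun i : Fin mm => swap i.castSucc i.succ)
      (Equiv.Perm.mclosure_swap_castSucc_succ mm)
    rintro _ ⟨j, rfl⟩ _ ⟨k, h1, h2, rfl⟩
    have h3 := nrmOK_spec okX nrm j.2 h1 h2
    rw [Kd_YP_add, YP_getD _ _ _ _ (by omega) (by omega), YP_getD _ _ _ _ h1 (by omega), ← hsw j] at h3
    rw [hYS, YP_getD _ _ _ _ h1 h2]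
    exact h3
  have hnt : Nontrivial (Kd YS 126 d) :=
    ⟨⟨⟨YS.getD 125 1, getD_mem_Kd YS hd (by norm_num)⟩, 1, fun e => ne125 (congrArg Subtype.val e)⟩⟩
  have genS : Kd YS 126 d = alternatingGroup (Fin (mm + 1)) := by
    apply le_antisymm
    · rw [Kd, closure_le]
      rintro _ ⟨k, h1, h2, rfl⟩
      exact mem_alt_of_pow5 _ (pS k h1 h2)
    · exact Equiv.Perm.alternatingGroup_le_of_normal (by simpa using h5) hnt
  have genG : Kd YG 126 d = ⊤ := by
    have h1 := Kd_map (alternatingGroup (Fin (mm + 1))).subtype YG 126 d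
    rw [hYG, genS] at h1
    rw [eq_top_iff]
    intro x _
    have hx : x.1 ∈ (Kd YG 126 d).map (alternatingGroup (Fin (mm + 1))).subtype := by rw [h1]; exact x.2
    obtain ⟨k, hk, e⟩ := hx
    have : k = x := Subtype.ext e
    exact this ▸ hk
  have evG : ∀ W W', ev YS W = ev YS W' → ev YG W = ev YG W' := by
    intro W W' h
    apply Subtype.ext
    have a := ev_map (alternatingGroup (Fin (mm + 1))).subtype YG W
    have b := ev_map (alternatingGroup (Fin (mm + 1))).subtype YG W'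
    rw [hYG] at a b
    exact a.symm.trans (h.trans b)
  have pG : ∀ y ∈ YG, y ^ 5 = 1 := by
    intro y hy
    apply Subtype.ext
    have : y.1 ∈ YS := by
      rw [← hYG]
      exact List.mem_map.2 ⟨y, hy, rfl⟩
    exact pS' _ this
  have relG : ∀ W ∈ rels, ev YG W = 1 := fun W hW => evG W [] (relT_spec okA (relA W hW))
  -- the element of order five
  have hx5 : ¬ 5 ∣ (zpowers (YG.getD 125 1)).index := by
    have e1 : ((YG.getD 125 1 : alternatingGroup (Fin (mm + 1))) : Perm (Fin (mm + 1))) = YS.getD 125 1 := by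
      have := getD_map (alternatingGroup (Fin (mm + 1))).subtype YG 125
      rw [hYG] at this
      exact this.symm
    have e2 : (YG.getD 125 1) ^ 5 = 1 := by
      apply Subtype.ext
      show ((YG.getD 125 1 : alternatingGroup (Fin (mm + 1))) : Perm (Fin (mm + 1))) ^ 5 = 1
      rw [e1]; exact pS 125 hd (by norm_num)
    have e3 : YG.getD 125 1 ≠ 1 := by
      intro h
      rw [h] at e1
      exact ne125 e1.symm
    have : Fact (Nat.Prime 5) := ⟨Nat.prime_five⟩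
    have e4 : orderOf (YG.getD 125 1) = 5 := orderOf_eq_prime e2 e3
    have e5 := Subgroup.card_mul_index (zpowers (YG.getD 125 1))
    rw [Nat.card_zpowers, e4, hg] at e5
    exact hg5 _ e5
  -- the model
  have lenG : YG.length = 126 := by
    have := congrArg List.length hYG
    rw [List.length_map, YP_length] at this
    exact this
  have hcG : ev YG Wc = 1 := evG Wc [] (relT_spec okA cA)
  have hWc : ∀ l ∈ Wc, 2 * d ≤ l ∧ l < 2 * 126 := by
    rw [eqT, Bool.and_eq_true, Bool.and_eq_true] at cA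
    exact inR_spec cA.1.1
  have powG : ∀ k, d ≤ k → k < 126 → (YG.getD k 1) ^ 5 = 1 := fun k h1 h2 =>
    pow5_of_ev _ _ (evG _ [] (relT_spec okA (powA k h1 h2)))
  obtain ⟨Γ₀, _, _, σ₀, hstem, ⟨e⟩⟩ := model_part YG YM 126 d g lenG (YP_length _ _ _ _ _ _) genG
    (commutator_alternatingGroup_eq_top (by simpa using h5)) hg rels relG
    (fun W hW => relT_spec okM (relM W hW)) powG
    (fun k h1 h2 => pow5_of_ev _ _ (relT_spec okM (powM k h1 h2))) hTC Wc hWc hcG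
    (neT_spec okM c2) (neT_spec okM c3) (relT_spec okM c6) (fun k h1 h2 => eqT_spec okM (ccomm k h1 h2))
  have hZ : Nat.card (Multiplicative (ZMod 6)) = 6 := by
    rw [Nat.card_eq_fintype_card]; rfl
  refine Cfsg.Agent.Lib.Helper41.hasSchurMultiplier_of_card_le Γ₀ σ₀ hstem e ?_
  intro Γ _ _ σ hσ
  rw [hZ]
  have h1 := bound5 σ hσ YG genG pG (YG.getD 125 1) hx5 rels hshape relG (6 * g) (hTC Γ)
  rw [card_eq_card_mul_ker σ hσ.1, hg, mul_comm 6] at h1
  have hgpos : 0 < g := by rw [← hg]; exact Nat.card_pos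
  exact Nat.le_of_mul_le_mul_left h1 hgpos

end main

end Cfsg.Agent.Lib.Helper43.AM
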