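import Cfsg.Agent.Lib.Helper43.AltSix

set_option autoImplicit false
set_option maxRecDepth 1000000
set_option maxHeartbeats 0

namespace Cfsg.Agent.Lib.Helper43.AM
open Cfsg.Agent.Lib.Helper88.TC Cfsg.Agent.Lib.Helper43.SP Cfsg.Agent.Lib.Helper43.PT

theorem okX7 : allOK 3 7 (6 + 1) TsA 0 (126 + 6) = true := by decide +kernel

theorem okA7 : allOK 3 7 (6 + 1) TsA 0 126 = true := by decide +kernel

theorem okM7 : allOK 9 511 285 TsM 0 126 = true := by decide +kernel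

theorem shape7 : ∀ W ∈ rels7, shp5 W = true :=
  al_spec (by decide +kernel)

theorem relA7 : ∀ W ∈ rels7, eqT 3 7 (6 + 1) TsA (2 * 0) (2 * 126) W [] = true :=
  al_spec (f := fun W => eqT 3 7 (6 + 1) TsA (2 * 0) (2 * 126) W []) (by decide +kernel)

theorem relM7 : ∀ W ∈ rels7, eqT 9 511 285 TsM (2 * 0) (2 * 126) W [] = true :=
  al_spec (f := fun W => eqT 9 511 285 TsM (2 * 0) (2 * 126) W []) (by decide +kernel)

theorem powA7 : ∀ k, 0 ≤ k → k < 126 →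
    eqT 3 7 (6 + 1) TsA (2 * 0) (2 * 126) [2 * k, 2 * k, 2 * k, 2 * k, 2 * k] [] = true :=
  alN_range (f := fun k => eqT 3 7 (6 + 1) TsA (2 * 0) (2 * 126) [2 * k, 2 * k, 2 * k, 2 * k, 2 * k] []) (by decide +kernel)

theorem powM7 : ∀ k, 0 ≤ k → k < 126 →
    eqT 9 511 285 TsM (2 * 0) (2 * 126) [2 * k, 2 * k, 2 * k, 2 * k, 2 * k] [] = true :=
  alN_range (f := fun k => eqT 9 511 285 TsM (2 * 0) (2 * 126) [2 * k, 2 * k, 2 * k, 2 * k, 2 * k] []) (by decide +kernel)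

theorem nrm7 : nrmOK 3 7 (6 + 1) TsA 0 126 6 cert = true := by decide +kernel

theorem hsw7 : ∀ j : Fin 6, Equiv.swap j.castSucc j.succ =
    mkP 3 7 (6 + 1) (nth 0 TsA (2 * (126 + j.1))) (nth 0 TsA (2 * (126 + j.1) + 1)) := by decide +kernel

theorem cA7 : eqT 3 7 (6 + 1) TsA (2 * 0) (2 * 126) Wc [] = true := by decide +kernel

theorem c27 : neT 9 511 285 TsM (2 * 0) (2 * 126) (Wc ++ Wc) 240 = true := by decide +kernel

theorem c37 : neT 9 511 285 TsM (2 * 0) (2 * 126) (Wc ++ Wc ++ Wc) 0 = true := by decide +kernel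

theorem c67 : eqT 9 511 285 TsM (2 * 0) (2 * 126) (Wc ++ Wc ++ Wc ++ (Wc ++ Wc ++ Wc)) [] = true := by decide +kernel

theorem ccomm7 : ∀ k, 0 ≤ k → k < 126 → eqT 9 511 285 TsM (2 * 0) (2 * 126) (Wc ++ [2 * k]) ([2 * k] ++ Wc) = true :=
  alN_range (f := fun k => eqT 9 511 285 TsM (2 * 0) (2 * 126) (Wc ++ [2 * k]) ([2 * k] ++ Wc)) (by decide +kernel)

theorem hne7 : neT 3 7 (6 + 1) TsA (2 * 0) (2 * 126) [2 * 125] 0 = true := by decide +kernel

theorem card7 : Nat.card (alternatingGroup (Fin (6 + 1))) = 2520 := by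
  rw [nat_card_alternatingGroup, Nat.card_fin]
  decide

theorem mult7 : Cfsg.HasCyclicSchurMultiplier (alternatingGroup (Fin (6 + 1))) 6 :=
  main TsA TsM Wc cert 6 0 2520 0 240 0 (by norm_num) (by norm_num) card7 (by intro i h; omega)
    okX7 okA7 okM7 rels7 shape7 relA7 relM7 powA7 powM7 (fun Γ _ Z h => tc7 Z h)
    nrm7 hsw7 cA7 c27 c37 c67 ccomm7 hne7

end Cfsg.Agent.Lib.Helper43.AM
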