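import Cfsg.Agent.Lib.Helper43.AltLev

set_option autoImplicit false
set_option maxRecDepth 1000000
set_option maxHeartbeats 0

namespace Cfsg.Agent.Lib.Helper43.AM
open Cfsg.Agent.Lib.Helper88.TC Cfsg.Agent.Lib.Helper43.SP Cfsg.Agent.Lib.Helper43.PT

theorem alN_range {f : ℕ → Bool} {d n : ℕ} (h : alN (fun k => Nat.blt k d || f k) n = true) :
    ∀ k, d ≤ k → k < n → f k = true := by
  intro k h1 h2
  have h3 := alN_spec h k h2
  rw [Bool.or_eq_true, Nat.blt_eq] at h3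
  rcases h3 with h3 | h3
  · omega
  · exact h3

theorem okX6 : allOK 3 7 (5 + 1) TsA 90 (126 + 5) = true := by decide +kernel

theorem okA6 : allOK 3 7 (5 + 1) TsA 90 126 = true := by decide +kernel

theorem okM6 : allOK 9 511 285 TsM 90 126 = true := by decide +kernel

theorem shape6 : ∀ W ∈ rels6, shp5 W = true :=
  al_spec (by decide +kernel)

theorem relA6 : ∀ W ∈ rels6, eqT 3 7 (5 + 1) TsA (2 * 90) (2 * 126) W [] = true :=
  al_spec (f := fun W => eqT 3 7 (5 + 1) TsA (2 * 90) (2 * 126) W []) (by decide +kernel)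

theorem relM6 : ∀ W ∈ rels6, eqT 9 511 285 TsM (2 * 90) (2 * 126) W [] = true :=
  al_spec (f := fun W => eqT 9 511 285 TsM (2 * 90) (2 * 126) W []) (by decide +kernel)

theorem powA6 : ∀ k, 90 ≤ k → k < 126 →
    eqT 3 7 (5 + 1) TsA (2 * 90) (2 * 126) [2 * k, 2 * k, 2 * k, 2 * k, 2 * k] [] = true :=
  alN_range (f := fun k => eqT 3 7 (5 + 1) TsA (2 * 90) (2 * 126) [2 * k, 2 * k, 2 * k, 2 * k, 2 * k] []) (by decide +kernel)

theorem powM6 : ∀ k, 90 ≤ k → k < 126 →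
    eqT 9 511 285 TsM (2 * 90) (2 * 126) [2 * k, 2 * k, 2 * k, 2 * k, 2 * k] [] = true :=
  alN_range (f := fun k => eqT 9 511 285 TsM (2 * 90) (2 * 126) [2 * k, 2 * k, 2 * k, 2 * k, 2 * k] []) (by decide +kernel)

theorem nrm6 : nrmOK 3 7 (5 + 1) TsA 90 126 5 cert = true := by decide +kernel

theorem hsw6 : ∀ j : Fin 5, Equiv.swap j.castSucc j.succ =
    mkP 3 7 (5 + 1) (nth 0 TsA (2 * (126 + j.1))) (nth 0 TsA (2 * (126 + j.1) + 1)) := by decide +kernel

theorem cA6 : eqT 3 7 (5 + 1) TsA (2 * 90) (2 * 126) Wc [] = true := by decide +kernel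

theorem c26 : neT 9 511 285 TsM (2 * 90) (2 * 126) (Wc ++ Wc) 240 = true := by decide +kernel

theorem c36 : neT 9 511 285 TsM (2 * 90) (2 * 126) (Wc ++ Wc ++ Wc) 0 = true := by decide +kernel

theorem c66 : eqT 9 511 285 TsM (2 * 90) (2 * 126) (Wc ++ Wc ++ Wc ++ (Wc ++ Wc ++ Wc)) [] = true := by decide +kernel

theorem ccomm6 : ∀ k, 90 ≤ k → k < 126 → eqT 9 511 285 TsM (2 * 90) (2 * 126) (Wc ++ [2 * k]) ([2 * k] ++ Wc) = true :=
  alN_range (f := fun k => eqT 9 511 285 TsM (2 * 90) (2 * 126) (Wc ++ [2 * k]) ([2 * k] ++ Wc)) (by decide +kernel)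

theorem hne6 : neT 3 7 (5 + 1) TsA (2 * 90) (2 * 126) [2 * 125] 0 = true := by decide +kernel

theorem card6 : Nat.card (alternatingGroup (Fin (5 + 1))) = 360 := by
  rw [nat_card_alternatingGroup, Nat.card_fin]
  decide

theorem mult6 : Cfsg.HasCyclicSchurMultiplier (alternatingGroup (Fin (5 + 1))) 6 :=
  main TsA TsM Wc cert 5 90 360 0 240 0 (by norm_num) (by norm_num) card6 (by intro i h; omega)
    okX6 okA6 okM6 rels6 shape6 relA6 relM6 powA6 powM6 (fun Γ _ Z h => (tc6 Z h).2)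
    nrm6 hsw6 cA6 c26 c36 c66 ccomm6 hne6

end Cfsg.Agent.Lib.Helper43.AM
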