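import Cfsg.Agent.Lib.Helper43.AltMult

/-!
Upper bounds for the kernels of stem extensions of alternating groups from kernel-checkable data.
-/

set_option autoImplicit false

namespace Cfsg.Agent.Lib.Helper43.AM
open Cfsg Cfsg.Agent.Lib.Helper88.TC Cfsg.Agent.Lib.Helper43.SP Cfsg.Agent.Lib.Helper43.PT Subgroup Equiv

universe u

theorem upper_alt (TsA : List ℕ) (cert : List (List ℕ)) (w m mm d ng g c i0 : ℕ) (h5 : 5 ≤ mm + 1) (hd : d < ng)
    (hg : Nat.card (alternatingGroup (Fin (mm + 1))) = g) (hg5 : ∀ i, 5 * i = g → ¬ 5 ∣ i)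
    (okX : allOK w m (mm + 1) TsA d (ng + mm) = true)
    (okA : allOK w m (mm + 1) TsA d ng = true)
    (rels : List (List ℕ))
    (hshape : ∀ W ∈ rels, shp5 W = true)
    (relA : ∀ W ∈ rels, eqT w m (mm + 1) TsA (2 * d) (2 * ng) W [] = true)
    (powA : ∀ k, d ≤ k → k < ng →
      eqT w m (mm + 1) TsA (2 * d) (2 * ng) [2 * k, 2 * k, 2 * k, 2 * k, 2 * k] [] = true)
    (nrm : nrmOK w m (mm + 1) TsA d ng mm cert = true)
    (hsw : ∀ j : Fin mm, swap j.castSucc j.succ =
      mkP w m (mm + 1) (nth 0 TsA (2 * (ng + j.1))) (nth 0 TsA (2 * (ng + j.1) + 1)))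
    (hne : neT w m (mm + 1) TsA (2 * d) (2 * ng) [2 * d] i0 = true)
    {Γ : Type u} [Group Γ] [Finite Γ]
    (hTC : ∀ (Z : List Γ), (∀ W ∈ rels, ev Z W = 1) → Nat.card (Kd Z ng d) ≤ c * g)
    (σ : Γ →* alternatingGroup (Fin (mm + 1))) (hσ : IsStemExtension σ) : Nat.card σ.ker ≤ c := by
  classical
  set YS := YP w m (mm + 1) TsA d ng with hYS
  have pS : ∀ k, d ≤ k → k < ng → (YS.getD k 1) ^ 5 = 1 := fun k h1 h2 =>
    pow5_of_ev _ _ (relT_spec okA (powA k h1 h2))
  have pS' : ∀ y ∈ YS, y ^ 5 = 1 := by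
    intro y hy
    rcases YP_mem hy with rfl | ⟨k, h1, h2, rfl⟩
    · exact one_pow 5
    · exact pS k h1 h2
  obtain ⟨YG, hYG⟩ := exists_sub_list (alternatingGroup (Fin (mm + 1))) YS
    (fun y hy => mem_alt_of_pow5 y (pS' y hy))
  have ned : YS.getD d 1 ≠ 1 := by
    have := neT_spec okA hne
    simpa only [ev, one_mul, lt_even] using this
  have hnormal : (Kd YS ng d).Normal := by
    apply normal_of_gens _ (Set.range fun i : Fin mm => swap i.castSucc i.succ)
      (Equiv.Perm.mclosure_swap_castSucc_succ mm)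
    rintro _ ⟨j, rfl⟩ _ ⟨k, h1, h2, rfl⟩
    have h3 := nrmOK_spec okX nrm j.2 h1 h2
    rw [Kd_YP_add, YP_getD _ _ _ _ (by omega) (by omega), YP_getD _ _ _ _ h1 (by omega), ← hsw j] at h3
    rw [hYS, YP_getD _ _ _ _ h1 h2]
    exact h3
  have hnt : Nontrivial (Kd YS ng d) :=
    ⟨⟨⟨YS.getD d 1, getD_mem_Kd YS le_rfl hd⟩, 1, fun e => ned (congrArg Subtype.val e)⟩⟩
  have genS : Kd YS ng d = alternatingGroup (Fin (mm + 1)) := by
    apply le_antisymm
    · rw [Kd, closure_le]
      rintro _ ⟨k, h1, h2, rfl⟩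
      exact mem_alt_of_pow5 _ (pS k h1 h2)
    · exact Equiv.Perm.alternatingGroup_le_of_normal (by simpa using h5) hnt
  have genG : Kd YG ng d = ⊤ := by
    have h1 := Kd_map (alternatingGroup (Fin (mm + 1))).subtype YG ng d
    rw [hYG, genS] at h1
    rw [eq_top_iff]
    intro x _
    have hx : x.1 ∈ (Kd YG ng d).map (alternatingGroup (Fin (mm + 1))).subtype := by rw [h1]; exact x.2
    obtain ⟨k, hk, e⟩ := hx
    have : k = x := Subtype.ext e
    exact this ▸ hk
  have evG : ∀ W W', ev YS W = ev YS W' → ev YG W = ev YG W' := by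
    intro W W' h
    apply Subtype.ext
    have a := ev_map (alternatingGroup (Fin (mm + 1))).subtype YG W
    have b := ev_map (alternatingGroup (Fin (mm + 1))).subtype YG W'
    rw [hYG] at a b
    exact a.symm.trans (h.trans b)
  have pG : ∀ y ∈ YG, y ^ 5 = 1 := by
    intro y hy
    apply Subtype.ext
    have : y.1 ∈ YS := by
      rw [← hYG]
      exact List.mem_map.2 ⟨y, hy, rfl⟩
    exact pS' _ this
  have relG : ∀ W ∈ rels, ev YG W = 1 := fun W hW => evG W [] (relT_spec okA (relA W hW))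
  have hx5 : ¬ 5 ∣ (zpowers (YG.getD d 1)).index := by
    have e1 : ((YG.getD d 1 : alternatingGroup (Fin (mm + 1))) : Perm (Fin (mm + 1))) = YS.getD d 1 := by
      have := getD_map (alternatingGroup (Fin (mm + 1))).subtype YG d
      rw [hYG] at this
      exact this.symm
    have e2 : (YG.getD d 1) ^ 5 = 1 := by
      apply Subtype.ext
      show ((YG.getD d 1 : alternatingGroup (Fin (mm + 1))) : Perm (Fin (mm + 1))) ^ 5 = 1
      rw [e1]; exact pS d le_rfl hd
    have e3 : YG.getD d 1 ≠ 1 := by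
      intro h
      rw [h] at e1
      exact ned e1.symm
    have : Fact (Nat.Prime 5) := ⟨Nat.prime_five⟩
    have e4 : orderOf (YG.getD d 1) = 5 := orderOf_eq_prime e2 e3
    have e5 := Subgroup.card_mul_index (zpowers (YG.getD d 1))
    rw [Nat.card_zpowers, e4, hg] at e5
    exact hg5 _ e5
  have h1 := bound5 σ hσ YG genG pG (YG.getD d 1) hx5 rels hshape relG (c * g) hTC
  rw [card_eq_card_mul_ker σ hσ.1, hg, mul_comm c] at h1
  have hgpos : 0 < g := by rw [← hg]; exact Nat.card_pos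
  exact Nat.le_of_mul_le_mul_left h1 hgpos

end Cfsg.Agent.Lib.Helper43.AM
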