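import Cfsg.Agent.Lib.Helper41.SchurCore

/-!
The Schur multiplier of a stem extension `S` of a perfect group `Q`: its order is the order of the multiplier of `Q`
divided by the order of the kernel of `S → Q`.
-/

set_option autoImplicit false

namespace Cfsg.Agent.Lib.Helper43.CM
open Cfsg Subgroup Cfsg.Agent.Lib.Helper41
open scoped commutatorElement

universe u

section basic
variable {Γ S Q : Type*} [Group Γ] [Group S] [Group Q]

theorem card_eq_mul_ker (σ : Γ →* S) (hσ : Function.Surjective σ) :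
    Nat.card Γ = Nat.card S * Nat.card σ.ker := by
  rw [Subgroup.card_eq_card_quotient_mul_card_subgroup σ.ker,
    Nat.card_congr (QuotientGroup.quotientKerEquivOfSurjective σ hσ).toEquiv]

theorem map_commutator_top (σ : Γ →* S) (hσ : Function.Surjective σ) :
    (commutator Γ).map σ = commutator S := by
  rw [commutator_def, Subgroup.map_commutator, ← MonoidHom.range_eq_map, MonoidHom.range_eq_top.2 hσ,
    ← commutator_def]

/-- a stem extension of a perfect group is perfect. -/
theorem perfect_of_stem (σ : Γ →* S) (hσ : IsStemExtension σ) (hS : commutator S = ⊤) : commutator Γ = ⊤ := by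
  have hmap := map_commutator_top σ hσ.1
  rw [hS] at hmap
  rw [eq_top_iff]
  intro g _
  have h1 : σ g ∈ (commutator Γ).map σ := by rw [hmap]; trivial
  obtain ⟨k, hk, e⟩ := h1
  have h2 : k⁻¹ * g ∈ σ.ker := by rw [MonoidHom.mem_ker, map_mul, map_inv, e, inv_mul_cancel]
  have : g = k * (k⁻¹ * g) := by group
  rw [this]
  exact mul_mem hk (hσ.2.2 h2)

/-- the composition of stem extensions of perfect groups is a stem extension. -/
theorem stem_comp (σ : Γ →* S) (hσ : IsStemExtension σ) (β : S →* Q) (hβ : IsStemExtension β)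
    (hS : commutator S = ⊤) : IsStemExtension (β.comp σ) := by
  have hΓ := perfect_of_stem σ hσ hS
  refine ⟨hβ.1.comp hσ.1, ?_, by rw [hΓ]; exact le_top⟩
  intro k hk
  have hk' : σ k ∈ center S := hβ.2.1 hk
  have h1 : ∀ a : Γ, ∃ z ∈ center Γ, k * a * k⁻¹ = a * z := by
    intro a
    refine ⟨a⁻¹ * (k * a * k⁻¹), hσ.2.1 ?_, by group⟩
    rw [MonoidHom.mem_ker]
    simp only [map_mul, map_inv]
    rw [← mem_center_iff.1 hk' (σ a)]
    group
  have h2 : ∀ g ∈ commutator Γ, k * g * k⁻¹ = g := by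
    intro g hg
    rw [commutator_eq_closure] at hg
    induction hg using closure_induction with
    | mem x hx =>
      obtain ⟨a, b, rfl⟩ := hx
      obtain ⟨z, hz, ea⟩ := h1 a
      obtain ⟨z', hz', eb⟩ := h1 b
      have e : k * ⁅a, b⁆ * k⁻¹ = ⁅k * a * k⁻¹, k * b * k⁻¹⁆ := by
        simp only [commutatorElement_def]; group
      rw [e, ea, eb, comm_mul_central_left _ _ _ hz, comm_mul_central_right _ _ _ hz']
    | one => group
    | mul x y _ _ hx hy =>
      calc k * (x * y) * k⁻¹ = (k * x * k⁻¹) * (k * y * k⁻¹) := by group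
        _ = x * y := by rw [hx, hy]
    | inv x _ hx =>
      calc k * x⁻¹ * k⁻¹ = (k * x * k⁻¹)⁻¹ := by group
        _ = x⁻¹ := by rw [hx]
  rw [mem_center_iff]
  intro g
  have := h2 g (by rw [hΓ]; trivial)
  calc g * k = (k * g * k⁻¹) * k := by rw [this]
    _ = k * g := by group

theorem card_ker_comp [Finite Γ] (σ : Γ →* S) (hσ : Function.Surjective σ) (β : S →* Q)
    (hβ : Function.Surjective β) : Nat.card (β.comp σ).ker = Nat.card β.ker * Nat.card σ.ker := by
  have hQ : Finite Q := Finite.of_surjective (β.comp σ) (hβ.comp hσ)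
  have h1 := card_eq_mul_ker σ hσ
  have h2 := card_eq_mul_ker β hβ
  have h3 := card_eq_mul_ker (β.comp σ) (hβ.comp hσ)
  rw [h1, h2, mul_assoc] at h3
  exact (Nat.eq_of_mul_eq_mul_left Nat.card_pos h3).symm

end basic

section main
variable {Q : Type} {S : Type u} [Group Q] [Group S] [Finite S] {A : Type} [CommGroup A]

theorem upper (hA : HasSchurMultiplier Q A) (β : S →* Q) (hβ : IsStemExtension β) (hS : commutator S = ⊤) (p : ℕ)
    (hcard : Nat.card A = Nat.card β.ker * p) {Γ : Type u} [Group Γ] [Finite Γ] (σ : Γ →* S)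
    (hσ : IsStemExtension σ) : Nat.card σ.ker ≤ p := by
  have hAf := hsm_finite hA
  obtain ⟨φ, hφ⟩ := hsm_surj_of_stem hA (β.comp σ) (stem_comp σ hσ β hβ hS)
  have h1 := Nat.card_le_card_of_surjective φ hφ
  rw [card_ker_comp σ hσ.1 β hβ.1, hcard] at h1
  exact Nat.le_of_mul_le_mul_left h1 Nat.card_pos

theorem exists_cover (hA : HasSchurMultiplier Q A) (β : S →* Q) (hβ : IsStemExtension β) (hS : commutator S = ⊤)
    (p : ℕ) (hcard : Nat.card A = Nat.card β.ker * p) :
    ∃ (Γ₀ : Type u) (_ : Group Γ₀) (_ : Finite Γ₀) (σ₀ : Γ₀ →* S), IsStemExtension σ₀ ∧ Nat.card σ₀.ker = p := by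
  obtain ⟨⟨D, _, _, α, hα, ⟨e⟩⟩, -⟩ := id hA
  have hQ : commutator Q = ⊤ := by rw [← map_commutator_top β hβ.1, hS, ← MonoidHom.range_eq_map,
    MonoidHom.range_eq_top.2 hβ.1]
  have hD : commutator D = ⊤ := perfect_of_stem α hα hQ
  let E : Subgroup (D × S) := (α.comp (MonoidHom.fst D S)).eqLocus (β.comp (MonoidHom.snd D S))
  have memE : ∀ x : D × S, x ∈ E ↔ α x.1 = β x.2 := fun x => Iff.rfl
  let f1 : E →* D := (MonoidHom.fst D S).comp E.subtype
  let f2 : E →* S := (MonoidHom.snd D S).comp E.subtype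
  have hf1 : Function.Surjective f1 := by
    intro d
    obtain ⟨s, hs⟩ := hβ.1 (α d)
    exact ⟨⟨(d, s), (memE _).2 hs.symm⟩, rfl⟩
  have hf2 : Function.Surjective f2 := by
    intro s
    obtain ⟨d, hd⟩ := hα.1 (β s)
    exact ⟨⟨(d, s), (memE _).2 hd⟩, rfl⟩
  -- the central kernel
  have hcen : ∀ x : E, α x.1.1 = 1 → x ∈ center E := by
    intro x hx
    have h1 : x.1.1 ∈ center D := hα.2.1 hx
    have h2 : x.1.2 ∈ center S := hβ.2.1 (by rw [MonoidHom.mem_ker, ← (memE x.1).1 x.2, hx])
    rw [mem_center_iff]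
    intro g
    apply Subtype.ext
    apply Prod.ext
    · exact mem_center_iff.1 h1 g.1.1
    · exact mem_center_iff.1 h2 g.1.2
  have hker : (α.comp f1).ker ≤ center E := fun x hx => hcen x hx
  have hsup : commutator E ⊔ (α.comp f1).ker = ⊤ := by
    rw [eq_top_iff]
    intro x _
    have h1 : f1 x ∈ (commutator E).map f1 := by rw [map_commutator_top f1 hf1, hD]; trivial
    obtain ⟨k, hk, ek⟩ := h1
    have h2 : k⁻¹ * x ∈ (α.comp f1).ker := by
      rw [MonoidHom.mem_ker, MonoidHom.comp_apply, map_mul, map_inv, ek, inv_mul_cancel, map_one]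
    have : x = k * (k⁻¹ * x) := by group
    rw [this]
    exact mul_mem (mem_sup_left hk) (mem_sup_right h2)
  have hperf : commutator (commutator E) = ⊤ := by
    have h1 := commutator_le_of_sup_central (commutator E) (α.comp f1).ker hker hsup
    rw [← map_subtype_commutator] at h1
    rw [eq_top_iff]
    intro a _
    obtain ⟨y, hy, ey⟩ := h1 a.2
    have : y = a := Subtype.ext ey
    rwa [this] at hy
  let σ₀ : commutator E →* S := f2.comp (commutator E).subtype
  let δ : commutator E →* D := f1.comp (commutator E).subtype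
  have hσ₀ : Function.Surjective σ₀ := by
    intro s
    have h1 : s ∈ (commutator E).map f2 := by rw [map_commutator_top f2 hf2, hS]; trivial
    obtain ⟨k, hk, ek⟩ := h1
    exact ⟨⟨k, hk⟩, ek⟩
  have hδ : Function.Surjective δ := by
    intro d
    have h1 : d ∈ (commutator E).map f1 := by rw [map_commutator_top f1 hf1, hD]; trivial
    obtain ⟨k, hk, ek⟩ := h1
    exact ⟨⟨k, hk⟩, ek⟩
  have hstem : IsStemExtension σ₀ := by
    refine ⟨hσ₀, ?_, by rw [hperf]; exact le_top⟩
    intro x hx
    have hx2 : x.1.1.2 = 1 := hx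
    have h1 : x.1 ∈ center E := hcen x.1 (by rw [(memE x.1.1).1 x.1.2, hx2, map_one])
    rw [mem_center_iff]
    intro g
    exact Subtype.ext (mem_center_iff.1 h1 g.1)
  refine ⟨commutator E, inferInstance, inferInstance, σ₀, hstem, le_antisymm (upper hA β hβ hS p hcard σ₀ hstem) ?_⟩
  have c1 := card_eq_mul_ker σ₀ hσ₀
  have c2 := card_eq_mul_ker α hα.1
  have c3 := card_eq_mul_ker β hβ.1
  have c4 := Nat.card_le_card_of_surjective δ hδ
  rw [Nat.card_congr e.toEquiv, hcard] at c2
  rw [c1, c2, c3, mul_assoc] at c4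
  have hQf : Finite Q := Finite.of_surjective β hβ.1
  have c5 := Nat.le_of_mul_le_mul_left c4 Nat.card_pos
  exact Nat.le_of_mul_le_mul_left c5 Nat.card_pos

/-- the multiplier of a stem extension of a perfect group, if the quotient of the orders is a prime. -/
theorem cover_multiplier (hA : HasSchurMultiplier Q A) (β : S →* Q) (hβ : IsStemExtension β)
    (hS : commutator S = ⊤) (p : ℕ) (hp : p.Prime) (hcard : Nat.card A = Nat.card β.ker * p) :
    HasCyclicSchurMultiplier S p := by
  have : Fact p.Prime := ⟨hp⟩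
  obtain ⟨Γ₀, _, _, σ₀, hst, hc⟩ := exists_cover hA β hβ hS p hcard
  have hZ : Nat.card (Multiplicative (ZMod p)) = p := by
    rw [Nat.card_congr Multiplicative.toAdd, Nat.card_zmod]
  exact hasSchurMultiplier_of_card_le Γ₀ σ₀ hst (mulEquivOfPrimeCardEq hc hZ)
    (fun Γ _ _ σ hσ => by rw [hZ]; exact upper hA β hβ hS p hcard σ hσ)

end main

end Cfsg.Agent.Lib.Helper43.CM
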