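import Cfsg.Agent.Lib.Helper43.J2PresAD

set_option autoImplicit false
set_option maxRecDepth 1000000
set_option maxHeartbeats 0

namespace Cfsg.Agent.Lib.Helper43.J2.PA
open Cfsg.Agent.Lib.Helper88.TC Cfsg.Agent.Lib.Helper43.SP

noncomputable def st3 : List (ℕ × ℕ × List ℕ) := parse (unpI 256 [0x180000100000184a000])

theorem par3 : parOK 4 15 74 75 rels3 = true := by decide +kernel

theorem fin3 : finOK 4 15 75 74 2 (run 4 15 75 74 rels3 st3 (initS 4 75 75)) = true := by
  decide +kernel

end Cfsg.Agent.Lib.Helper43.J2.PA
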