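import Cfsg.Agent.Lib.Helper43.J2PresBD

set_option autoImplicit false
set_option maxRecDepth 1000000
set_option maxHeartbeats 0

namespace Cfsg.Agent.Lib.Helper43.J2.PB
open Cfsg.Agent.Lib.Helper88.TC Cfsg.Agent.Lib.Helper43.SP

noncomputable def st2 : List (ℕ × ℕ × List ℕ) := parse (unpI 256 [0x5801004000005000003801007000008000005800007000007801006000008801804000004800004000006000004800005000008000003801006000004800001000007801805000006000002801006000002800006000006801805000003801005000006801804000003800804000007800003000005800002000003800001000004821000000001823800000001823000000001822800000001822000000001821800000001821000])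

theorem par2 : parOK 6 63 33 36 rels2 = true := by decide +kernel

theorem fin2 : finOK 6 63 37 33 8 (run 6 63 37 33 rels2 st2 (initS 6 37 36)) = true := by
  decide +kernel

end Cfsg.Agent.Lib.Helper43.J2.PB
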