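import Cfsg.Agent.Lib.Helper43.J2PresBD

set_option autoImplicit false
set_option maxRecDepth 1000000
set_option maxHeartbeats 0

namespace Cfsg.Agent.Lib.Helper43.J2.PB
open Cfsg.Agent.Lib.Helper88.TC Cfsg.Agent.Lib.Helper43.SP

noncomputable def st3 : List (ℕ × ℕ × List ℕ) := parse (unpI 256 [0x3800001000001824800000001824000])

theorem par3 : parOK 5 31 36 37 rels3 = true := by decide +kernel

theorem fin3 : finOK 5 31 37 36 3 (run 5 31 37 36 rels3 st3 (initS 5 37 37)) = true := by
  decide +kernel

end Cfsg.Agent.Lib.Helper43.J2.PB
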