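import Cfsg.Agent.Lib.Helper43.J2PresAL0
import Cfsg.Agent.Lib.Helper43.J2PresAL1
import Cfsg.Agent.Lib.Helper43.J2PresAL2
import Cfsg.Agent.Lib.Helper43.J2PresAL3
import Cfsg.Agent.Lib.Helper43.J2PresBL0
import Cfsg.Agent.Lib.Helper43.J2PresBL1
import Cfsg.Agent.Lib.Helper43.J2PresBL2
import Cfsg.Agent.Lib.Helper43.J2PresBL3
import Cfsg.Agent.Lib.Helper41.SchurCore

/-!
The Schur multiplier of `J2` has order two.
-/

set_option autoImplicit false

namespace Cfsg.Agent.Lib.Helper43.J2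
open Cfsg Cfsg.Spor
open Cfsg.Agent.Lib.Helper88.TC Cfsg.Agent.Lib.Helper43.SP
open scoped commutatorElement

theorem PA.card_le_abs {Γ : Type*} [Group Γ] (Z : List Γ) (h0 : ∀ W ∈ PA.rels0, ev Z W = 1)
    (h1 : ∀ W ∈ PA.rels1, ev Z W = 1) (h2 : ∀ W ∈ PA.rels2, ev Z W = 1) (h3 : ∀ W ∈ PA.rels3, ev Z W = 1) :
    Nat.card (Kd Z 75 0) ≤ 1209600 := by
  have f75 : Finite (Kd Z 75 75) := by rw [Kd_self]; infer_instance
  obtain ⟨f3, c3⟩ := level_le h3 PA.par3 PA.fin3
  obtain ⟨f2, c2⟩ := level_le h2 PA.par2 PA.fin2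
  obtain ⟨f1, c1⟩ := level_le h1 PA.par1 PA.fin1
  obtain ⟨f0, c0⟩ := level_le h0 PA.par0 PA.fin0
  have e : Nat.card (Kd Z 75 75) = 1 := by rw [Kd_self]; exact Subgroup.card_bot
  omega

theorem PB.card_le_abs {Γ : Type*} [Group Γ] (Z : List Γ) (h0 : ∀ W ∈ PB.rels0, ev Z W = 1)
    (h1 : ∀ W ∈ PB.rels1, ev Z W = 1) (h2 : ∀ W ∈ PB.rels2, ev Z W = 1) (h3 : ∀ W ∈ PB.rels3, ev Z W = 1) :
    Nat.card (Kd Z 37 0) ≤ 1209600 := by
  have f37 : Finite (Kd Z 37 37) := by rw [Kd_self]; infer_instance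
  obtain ⟨f3, c3⟩ := level_le h3 PB.par3 PB.fin3
  obtain ⟨f2, c2⟩ := level_le h2 PB.par2 PB.fin2
  obtain ⟨f1, c1⟩ := level_le h1 PB.par1 PB.fin1
  obtain ⟨f0, c0⟩ := level_le h0 PB.par0 PB.fin0
  have e : Nat.card (Kd Z 37 37) = 1 := by rw [Kd_self]; exact Subgroup.card_bot
  omega

/-- stem extensions with kernel of odd order. -/
theorem boundA {Γ : Type*} [Group Γ] [Finite Γ] (σ : Γ →* J2) (hσ : IsStemExtension σ)
    (hc : (Nat.card σ.ker).Coprime 2) : Nat.card Γ ≤ 1209600 := by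
  have D := CData.of_coprime hσ.1 hσ.2.1 hc
  obtain ⟨Z, L⟩ := exists_lifts D (YJ PA.ws) (pow_eq_one_of 2 PA.tbl_ok PA.pow_ok)
  have hv : ∀ (rels : List (List ℕ)), (rels.all fun W => relOK PA.tbl 150 W && shp2 W) = true →
      ∀ W ∈ rels, ev Z W = 1 := by
    intro rels h W hW
    have h1 := List.all_eq_true.1 h W hW
    rw [Bool.and_eq_true_iff] at h1
    exact valid2 D L h1.2 (ev_eq_one PA.tbl_ok h1.1)
  exact L.card_le hσ (Kd_top_of (ng := 75) PA.tbl_ok PA.refl PA.refl_ok PA.gcert PA.gcert_ok)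
    (PA.card_le_abs Z (hv _ PA.rel0_ok) (hv _ PA.rel1_ok) (hv _ PA.rel2_ok) (hv _ PA.rel3_ok))

/-- stem extensions with kernel of order prime to three. -/
theorem boundB {Γ : Type*} [Group Γ] [Finite Γ] (σ : Γ →* J2) (hσ : IsStemExtension σ)
    (hc : (Nat.card σ.ker).Coprime 3) : Nat.card Γ ≤ 1209600 := by
  have D := CData.of_coprime hσ.1 hσ.2.1 hc
  obtain ⟨Z, L⟩ := exists_lifts D (YJ PB.ws) (pow_eq_one_of 3 PB.tbl_ok PB.pow_ok)
  have hv : ∀ (rels : List (List ℕ)), (rels.all fun W => relOK PB.tbl 74 W && shp3 W) = true →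
      ∀ W ∈ rels, ev Z W = 1 := by
    intro rels h W hW
    have h1 := List.all_eq_true.1 h W hW
    rw [Bool.and_eq_true_iff] at h1
    exact valid3 D L h1.2 (ev_eq_one PB.tbl_ok h1.1)
  exact L.card_le hσ (Kd_top_of (ng := 37) PB.tbl_ok PB.refl PB.refl_ok PB.gcert PB.gcert_ok)
    (PB.card_le_abs Z (hv _ PB.rel0_ok) (hv _ PB.rel1_ok) (hv _ PB.rel2_ok) (hv _ PB.rel3_ok))

theorem card_eq_ker {Γ : Type*} [Group Γ] (σ : Γ →* J2) (hσ : Function.Surjective σ) :
    Nat.card Γ = 604800 * Nat.card σ.ker := by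
  rw [Subgroup.card_eq_card_quotient_mul_card_subgroup σ.ker,
    Nat.card_congr (QuotientGroup.quotientKerEquivOfSurjective σ hσ).toEquiv, card_J2]

theorem stem_card_le {Γ : Type*} [Group Γ] [Finite Γ] (σ : Γ →* J2) (hσ : IsStemExtension σ) :
    Nat.card σ.ker ≤ 2 := by
  have : Fact (Nat.Prime 2) := ⟨Nat.prime_two⟩
  set n := Nat.card σ.ker with hn
  have hn0 : n ≠ 0 := Nat.card_pos.ne'
  -- the kernel is a 2-group
  obtain ⟨P⟩ : Nonempty (Sylow 2 σ.ker) := inferInstance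
  set Z0 : Subgroup Γ := (P : Subgroup σ.ker).map σ.ker.subtype with hZ0
  have hle : Z0 ≤ σ.ker := by
    rintro _ ⟨x, _, rfl⟩
    exact x.2
  have hnorm : Z0.Normal := Cfsg.Agent.Lib.Helper41.normal_of_le_center Z0 (hle.trans hσ.2.1)
  have hcZ : Nat.card Z0 = 2 ^ n.factorization 2 := by
    rw [hZ0, Subgroup.card_map_of_injective σ.ker.subtype_injective, P.card_eq_multiplicity]
  have hk : ∀ x ∈ Z0, σ x = 1 := fun x hx => hle hx
  have hτ := Cfsg.Agent.Lib.Helper9.stem_quotient σ hσ Z0 hk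
  set τ := QuotientGroup.lift Z0 σ hk with hτd
  have c1 := card_eq_ker σ hσ.1
  have c2 := card_eq_ker τ hτ.1
  have c3 := Subgroup.card_eq_card_quotient_mul_card_subgroup Z0
  rw [c1, c2, hcZ, mul_assoc] at c3
  have c4 : n = Nat.card τ.ker * 2 ^ n.factorization 2 := Nat.eq_of_mul_eq_mul_left (by norm_num) c3
  have c5 : Nat.card τ.ker = n / 2 ^ n.factorization 2 :=
    (Nat.div_eq_of_eq_mul_left (pow_pos (by norm_num) _) c4).symm
  have c6 : (Nat.card τ.ker).Coprime 2 := by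
    rw [c5]
    exact (Nat.coprime_ordCompl Nat.prime_two hn0).symm
  have c7 := boundA τ hτ c6
  rw [c2] at c7
  have c8 : Nat.card τ.ker = 1 := by
    have h1 : Nat.card τ.ker ≤ 2 := by omega
    have h2 : Nat.card τ.ker ≠ 0 := Nat.card_pos.ne'
    have h3 : Nat.card τ.ker ≠ 2 := by
      intro h
      rw [h] at c6
      exact absurd c6 (by norm_num)
    omega
  rw [c8, one_mul] at c4
  have c9 : n.Coprime 3 := by
    rw [c4]
    exact Nat.Coprime.pow_left _ (by norm_num)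
  have c10 := boundB σ hσ c9
  rw [c1] at c10
  omega

/-! ### the double cover -/

theorem sq_chk : evM ([138, 120, 267, 212] ++ [138, 120, 267, 212]) = negN := by decide +kernel

theorem exists_sq : ∃ F : twoJ2, F * F = negJ := by
  refine ⟨evX [138, 120, 267, 212], ?_⟩
  rw [← evX_append]
  apply Subtype.ext
  apply eq_negP_of_rep (twoJ2_le_AA (evX _).2)
  rw [← sq_chk]
  apply rep_evX
  decide

theorem commutator_J2 : commutator J2 = ⊤ := by
  have := simple_J2
  rcases (inferInstance : (commutator J2).Normal).eq_bot_or_eq_top with h | h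
  · exfalso
    obtain ⟨a, b, hab⟩ := noncomm_J2
    have h1 : ⁅a, b⁆ ∈ commutator J2 := Subgroup.commutator_mem_commutator (Subgroup.mem_top a) (Subgroup.mem_top b)
    rw [h, Subgroup.mem_bot, commutatorElement_eq_one_iff_mul_comm] at h1
    exact hab h1
  · exact h

theorem stem_pj : IsStemExtension pj := by
  have hker : pj.ker = Subgroup.center twoJ2 := QuotientGroup.ker_mk' _
  have hsurj : Function.Surjective pj := QuotientGroup.mk'_surjective _
  have hmap : (commutator twoJ2).map pj = ⊤ := by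
    rw [commutator_def, Subgroup.map_commutator, ← MonoidHom.range_eq_map,
      MonoidHom.range_eq_top.2 hsurj, ← commutator_def, commutator_J2]
  refine ⟨hsurj, hker.le, ?_⟩
  intro w hw
  rw [hker, mem_center_iff] at hw
  rcases hw with rfl | rfl
  · exact one_mem _
  · obtain ⟨F, hF⟩ := exists_sq
    have h1 : pj F ∈ (commutator twoJ2).map pj := by rw [hmap]; trivial
    obtain ⟨k, hk, hkF⟩ := h1
    have h2 : k⁻¹ * F ∈ pj.ker := by
      rw [MonoidHom.mem_ker, map_mul, map_inv, hkF, inv_mul_cancel]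
    have h2c : k⁻¹ * F ∈ Subgroup.center twoJ2 := hker ▸ h2
    have h3 : (k⁻¹ * F) * (k⁻¹ * F) = 1 := by
      rcases mem_center_iff.1 h2c with h | h
      · rw [h, one_mul]
      · rw [h]
        apply Subtype.ext
        exact negP_mul_self
    have hc := Subgroup.mem_center_iff.1 h2c
    have e : F * F = k * k := by
      calc F * F = k * (k⁻¹ * F) * (k * (k⁻¹ * F)) := by group
        _ = k * ((k⁻¹ * F) * k) * (k⁻¹ * F) := by group
        _ = k * (k * (k⁻¹ * F)) * (k⁻¹ * F) := by rw [hc k]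
        _ = k * k * ((k⁻¹ * F) * (k⁻¹ * F)) := by group
        _ = k * k := by rw [h3, mul_one]
    rw [← hF, e]
    exact mul_mem hk hk

theorem multiplier_J2 : HasCyclicSchurMultiplier J2 2 := by
  have hZ : Nat.card (Multiplicative (ZMod 2)) = 2 := by
    rw [Nat.card_eq_fintype_card]; rfl
  have : Fact (Nat.Prime 2) := ⟨Nat.prime_two⟩
  have hcard : Nat.card pj.ker = 2 := by
    have hker : pj.ker = Subgroup.center twoJ2 := QuotientGroup.ker_mk' _
    rw [hker, card_center]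
  exact Cfsg.Agent.Lib.Helper41.hasSchurMultiplier_of_card_le twoJ2 pj stem_pj
    (mulEquivOfPrimeCardEq hcard hZ)
    (fun Γ _ _ σ hσ => by rw [hZ]; exact stem_card_le σ hσ)

end Cfsg.Agent.Lib.Helper43.J2
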