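import Cfsg.Agent.Lib.Helper43.J2Aut2
import Cfsg.Agent.Lib.Helper88.TCWord

/-!
Words in elements of `J2` which are given as products of reflections, evaluated with matrices modulo 311.
-/

set_option autoImplicit false
open Quaternion

namespace Cfsg.Agent.Lib.Helper43.J2
open Cfsg.Spor Q8 V3
open Cfsg.Agent.Lib.Helper88.TC

/-- product of reflections, the head is the rightmost factor. -/
noncomputable def evX : List ℕ → twoJ2
  | [] => 1
  | i :: r => evX r * XT i

def evM : List ℕ → NM
  | [] => oneN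
  | i :: r => mulN (NR i) (evM r)

lemma rep_evX : ∀ (w : List ℕ), (∀ i ∈ w, i < 315) → Rep (evM w) (code (evX w).1)
  | [], _ => rep_one
  | i :: r, h =>
    rep_mul (twoJ2_le_AA (evX r).2) (rep_evX r fun j hj => h j (List.mem_cons_of_mem _ hj))
      (rep_NR (h i List.mem_cons_self))

lemma XT_inv (i : ℕ) : (XT i)⁻¹ = XT i := Subtype.ext (RF_inv (isMin_rv i))

lemma evX_append (a b : List ℕ) : evX (a ++ b) = evX b * evX a := by
  induction a with
  | nil => simp [evX]
  | cons l r ih => rw [List.cons_append, evX, evX, ih, mul_assoc]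

lemma evX_reverse (w : List ℕ) : evX w.reverse = (evX w)⁻¹ := by
  induction w with
  | nil => simp [evX]
  | cons i r ih =>
    rw [List.reverse_cons, evX_append, ih, evX, evX, evX, one_mul, mul_inv_rev, XT_inv]

/-- the word of a letter. -/
def lw (ws : List (List ℕ)) (l : ℕ) : List ℕ :=
  if l % 2 = 0 then ws.getD (l / 2) [] else (ws.getD (l / 2) []).reverse

/-- the list of elements of `J2` given by a list of words. -/
noncomputable def YJ (ws : List (List ℕ)) : List J2 := ws.map fun w => QuotientGroup.mk (evX w)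

lemma getD_YJ (ws : List (List ℕ)) (k : ℕ) : (YJ ws).getD k 1 = QuotientGroup.mk (evX (ws.getD k [])) := by
  have h := List.getD_map (f := fun w => (QuotientGroup.mk (evX w) : J2)) (l := ws) (d := []) (n := k)
  exact h

lemma lt_YJ (ws : List (List ℕ)) (l : ℕ) : lt (YJ ws) l = QuotientGroup.mk (evX (lw ws l)) := by
  unfold lt lw
  split_ifs with h
  · exact getD_YJ ws _
  · rw [getD_YJ, evX_reverse]; rfl

noncomputable def evT (ws : List (List ℕ)) : List ℕ → twoJ2
  | [] => 1
  | l :: r => evT ws r * evX (lw ws l)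

lemma ev_YJ (ws : List (List ℕ)) (W : List ℕ) : ev (YJ ws) W = QuotientGroup.mk (evT ws W) := by
  induction W with
  | nil => rfl
  | cons l r ih => rw [ev, evT, ih, lt_YJ]; rfl

def evL (tbl : List NM) : List ℕ → NM
  | [] => oneN
  | l :: r => mulN (tbl.getD l oneN) (evL tbl r)

def tblOK (ws : List (List ℕ)) (tbl : List NM) (n : ℕ) : Bool :=
  (List.range n).all fun l => decide (evM (lw ws l) = tbl.getD l oneN) && (lw ws l).all fun i => decide (i < 315)

lemma rep_lw {ws : List (List ℕ)} {tbl : List NM} {n : ℕ} (h : tblOK ws tbl n = true) {l : ℕ} (hl : l < n) :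
    Rep (tbl.getD l oneN) (code (evX (lw ws l)).1) := by
  have h1 := List.all_eq_true.1 h l (List.mem_range.2 hl)
  rw [Bool.and_eq_true_iff, decide_eq_true_eq, List.all_eq_true] at h1
  rw [← h1.1]
  exact rep_evX _ fun i hi => of_decide_eq_true (h1.2 i hi)

lemma rep_evT {ws : List (List ℕ)} {tbl : List NM} {n : ℕ} (h : tblOK ws tbl n = true) :
    ∀ W : List ℕ, (∀ l ∈ W, l < n) → Rep (evL tbl W) (code (evT ws W).1)
  | [], _ => rep_one
  | l :: r, hW =>
    rep_mul (twoJ2_le_AA (evT ws r).2) (rep_evT h r fun j hj => hW j (List.mem_cons_of_mem _ hj))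
      (rep_lw h (hW l List.mem_cons_self))

lemma mk_eq_one_of_isPM {A : NM} {a : twoJ2} (hA : Rep A (code a.1)) (h : isPM A = true) :
    (QuotientGroup.mk a : J2) = 1 := by
  rw [mk_eq_one_iff]
  unfold isPM at h
  rw [Bool.or_eq_true_iff, decide_eq_true_eq, decide_eq_true_eq] at h
  rcases h with rfl | rfl
  · exact Or.inl (eq_one_of_rep (twoJ2_le_AA a.2) hA)
  · exact Or.inr (eq_negP_of_rep (twoJ2_le_AA a.2) hA)

def relOK (tbl : List NM) (n : ℕ) (W : List ℕ) : Bool := (W.all fun l => decide (l < n)) && isPM (evL tbl W)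

lemma ev_eq_one {ws : List (List ℕ)} {tbl : List NM} {n : ℕ} (h : tblOK ws tbl n = true) {W : List ℕ}
    (hW : relOK tbl n W = true) : ev (YJ ws) W = 1 := by
  unfold relOK at hW
  rw [Bool.and_eq_true_iff, List.all_eq_true] at hW
  rw [ev_YJ]
  exact mk_eq_one_of_isPM (rep_evT h W fun l hl => of_decide_eq_true (hW.1 l hl)) hW.2

/-- the word `W` represents the reflection number `i`. -/
def reflOK (tbl : List NM) (n : ℕ) (x : ℕ × List ℕ) : Bool :=
  decide (x.1 < 315) && (x.2.all fun l => decide (l < n)) && isPM (mulN (NR x.1) (evL tbl x.2))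

lemma X_eq_ev {ws : List (List ℕ)} {tbl : List NM} {n : ℕ} (h : tblOK ws tbl n = true) {x : ℕ × List ℕ}
    (hx : reflOK tbl n x = true) : X x.1 = ev (YJ ws) x.2 := by
  unfold reflOK at hx
  rw [Bool.and_eq_true_iff, Bool.and_eq_true_iff, List.all_eq_true, decide_eq_true_eq] at hx
  have r1 := rep_evT h x.2 fun l hl => of_decide_eq_true (hx.1.2 l hl)
  have r2 : Rep (mulN (NR x.1) (evL tbl x.2)) (code (evT ws x.2 * XT x.1).1) :=
    rep_mul (twoJ2_le_AA (evT ws x.2).2) r1 (rep_NR hx.1.1)
  have e := mk_eq_one_of_isPM r2 hx.2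
  rw [ev_YJ]
  have e2 : (QuotientGroup.mk (evT ws x.2) : J2) * X x.1 = 1 := e
  have e3 : X x.1 * X x.1 = 1 := by
    show (QuotientGroup.mk (XT x.1 * XT x.1) : J2) = 1
    have : XT x.1 * XT x.1 = 1 := by
      have h0 := inv_mul_cancel (XT x.1)
      rwa [XT_inv] at h0
    rw [this]; rfl
  calc X x.1 = (QuotientGroup.mk (evT ws x.2) : J2) * X x.1 * X x.1 := by rw [e2, one_mul]
    _ = QuotientGroup.mk (evT ws x.2) := by rw [mul_assoc, e3, mul_one]

/-- a subgroup containing enough reflections is everything. -/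
lemma eq_top_of_refl (K : Subgroup J2) (known : List ℕ) (cert : List (ℕ × ℕ × ℕ)) (hk : ∀ i ∈ known, X i ∈ K)
    (h : genChk known cert = true) : K = ⊤ := by
  have hall := gen_aux K cert known hk h
  rw [eq_top_iff, ← closure_GS, Subgroup.closure_le]
  intro x hx
  simp only [GS, Set.mem_insert_iff, Set.mem_singleton_iff] at hx
  rcases hx with rfl | rfl | rfl | rfl
  · exact hall 0 (by norm_num)
  · exact hall 184 (by norm_num)
  · exact hall 170 (by norm_num)
  · exact hall 171 (by norm_num)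

lemma ev_replicate {Γ : Type*} [Group Γ] (Y : List Γ) (l : ℕ) (p : ℕ) : ev Y (List.replicate p l) = (lt Y l) ^ p := by
  induction p with
  | zero => simp [ev]
  | succ p ih => rw [List.replicate_succ, ev, ih, pow_succ]

lemma pow_eq_one_of {ws : List (List ℕ)} {tbl : List NM} {n : ℕ} (p : ℕ) (h : tblOK ws tbl n = true)
    (hp : ((List.range ws.length).all fun k => relOK tbl n (List.replicate p (2 * k))) = true) :
    ∀ y ∈ YJ ws, y ^ p = 1 := by
  intro y hy
  obtain ⟨k, hk, rfl⟩ := List.mem_iff_getElem.1 hy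
  have hk' : k < ws.length := by simpa [YJ] using hk
  have h1 := ev_eq_one h (List.all_eq_true.1 hp k (List.mem_range.2 hk'))
  rw [ev_replicate, lt_even, List.getD_eq_getElem _ _ hk] at h1
  exact h1

lemma Kd_top_of {ws : List (List ℕ)} {tbl : List NM} {ng : ℕ} (h : tblOK ws tbl (2 * ng) = true)
    (rw' : List (ℕ × List ℕ)) (hr : (rw'.all (reflOK tbl (2 * ng))) = true) (cert : List (ℕ × ℕ × ℕ))
    (hc : genChk (rw'.map Prod.fst) cert = true) : Kd (YJ ws) ng 0 = ⊤ := by
  refine eq_top_of_refl _ _ cert ?_ hc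
  intro i hi
  obtain ⟨x, hx, rfl⟩ := List.mem_map.1 hi
  have h1 := List.all_eq_true.1 hr x hx
  rw [X_eq_ev h h1]
  apply ev_mem_Kd
  intro l hl
  unfold reflOK at h1
  rw [Bool.and_eq_true_iff, Bool.and_eq_true_iff, List.all_eq_true] at h1
  exact ⟨Nat.zero_le _, of_decide_eq_true (h1.1.2 l hl)⟩

end Cfsg.Agent.Lib.Helper43.J2
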