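import Cfsg.Agent.Lib.Helper88.TCCore

/-!
Permutations of `Fin N` given by packed tables, and kernel-checkable identities between words in such permutations.
-/

set_option autoImplicit false

namespace Cfsg.Agent.Lib.Helper43.PT
open Cfsg.Agent.Lib.Helper88.TC Subgroup

/-- the entry number `i` of a packed table with fields of `w` bits (`m = 2 ^ w - 1`). -/
def tv (w m T i : ℕ) : ℕ := rd m T (Nat.mul w i)

/-- `T` and `T'` are tables of mutually inverse permutations of the numbers below `N`. -/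
noncomputable def okT (w m N T T' : ℕ) : Bool :=
  alN (fun i => Nat.blt (tv w m T i) N && Nat.blt (tv w m T' i) N && Nat.beq (tv w m T' (tv w m T i)) i &&
    Nat.beq (tv w m T (tv w m T' i)) i) N

theorem okT_spec {w m N T T' : ℕ} (h : okT w m N T T' = true) {i : ℕ} (hi : i < N) :
    tv w m T i < N ∧ tv w m T' i < N ∧ tv w m T' (tv w m T i) = i ∧ tv w m T (tv w m T' i) = i := by
  have h1 := alN_spec h i hi
  simp only [Bool.and_eq_true, Nat.blt_eq] at h1
  exact ⟨h1.1.1.1, h1.1.1.2, Nat.eq_of_beq_eq_true h1.1.2, Nat.eq_of_beq_eq_true h1.2⟩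

/-- the permutation with the table `T`. -/
noncomputable def mkP (w m N T T' : ℕ) : Equiv.Perm (Fin N) :=
  if h : okT w m N T T' = true then
    { toFun := fun i => ⟨tv w m T i.1, (okT_spec h i.2).1⟩
      invFun := fun i => ⟨tv w m T' i.1, (okT_spec h i.2).2.1⟩
      left_inv := fun i => Fin.ext (okT_spec h i.2).2.2.1
      right_inv := fun i => Fin.ext (okT_spec h i.2).2.2.2 }
  else 1

theorem mkP_val {w m N T T' : ℕ} (h : okT w m N T T' = true) (i : Fin N) :
    (mkP w m N T T' i).1 = tv w m T i.1 := by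
  rw [mkP, dif_pos h]; rfl

theorem mkP_inv_val {w m N T T' : ℕ} (h : okT w m N T T' = true) (i : Fin N) :
    ((mkP w m N T T')⁻¹ i).1 = tv w m T' i.1 := by
  rw [mkP, dif_pos h]; rfl

/-- the list of the permutations with the tables `Ts` (the first `d` are replaced by `1`). -/
noncomputable def YP (w m N : ℕ) (Ts : List ℕ) (d ng : ℕ) : List (Equiv.Perm (Fin N)) :=
  (List.range ng).map fun k => if k < d then 1 else mkP w m N (nth 0 Ts (2 * k)) (nth 0 Ts (2 * k + 1))

theorem YP_length (w m N : ℕ) (Ts : List ℕ) (d ng : ℕ) : (YP w m N Ts d ng).length = ng := by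
  simp [YP]

theorem YP_getD (w m N : ℕ) (Ts : List ℕ) {d ng k : ℕ} (h1 : d ≤ k) (h2 : k < ng) :
    (YP w m N Ts d ng).getD k 1 = mkP w m N (nth 0 Ts (2 * k)) (nth 0 Ts (2 * k + 1)) := by
  rw [List.getD_eq_getElem _ _ (by rw [YP_length]; exact h2)]
  simp only [YP, List.getElem_map, List.getElem_range]
  rw [if_neg (by omega)]

theorem YP_mem {w m N : ℕ} {Ts : List ℕ} {d ng : ℕ} {y : Equiv.Perm (Fin N)} (h : y ∈ YP w m N Ts d ng) :
    y = 1 ∨ ∃ k, d ≤ k ∧ k < ng ∧ y = (YP w m N Ts d ng).getD k 1 := by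
  have h' := h
  simp only [YP, List.mem_map, List.mem_range] at h'
  obtain ⟨k, hk, rfl⟩ := h'
  by_cases hd : k < d
  · left; rw [if_pos hd]
  · right
    refine ⟨k, by omega, hk, ?_⟩
    rw [YP_getD _ _ _ _ (by omega) hk, if_neg hd]

/-- all the tables are tables of permutations. -/
noncomputable def allOK (w m N : ℕ) (Ts : List ℕ) (d ng : ℕ) : Bool :=
  alN (fun k => Nat.blt k d || okT w m N (nth 0 Ts (2 * k)) (nth 0 Ts (2 * k + 1))) ng

theorem allOK_spec {w m N : ℕ} {Ts : List ℕ} {d ng : ℕ} (h : allOK w m N Ts d ng = true) {k : ℕ} (h1 : d ≤ k)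
    (h2 : k < ng) : okT w m N (nth 0 Ts (2 * k)) (nth 0 Ts (2 * k + 1)) = true := by
  have h3 := alN_spec h k h2
  rw [Bool.or_eq_true, Nat.blt_eq] at h3
  rcases h3 with h3 | h3
  · omega
  · exact h3

theorem lt_val {w m N : ℕ} {Ts : List ℕ} {d ng : ℕ} (h : allOK w m N Ts d ng = true) {l : ℕ} (h1 : 2 * d ≤ l)
    (h2 : l < 2 * ng) (i : Fin N) : (lt (YP w m N Ts d ng) l i).1 = tv w m (nth 0 Ts l) i.1 := by
  rcases Nat.even_or_odd' l with ⟨k, rfl | rfl⟩
  · rw [lt_even, YP_getD _ _ _ _ (by omega) (by omega), mkP_val (allOK_spec h (by omega) (by omega))]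
  · rw [lt_odd, YP_getD _ _ _ _ (by omega) (by omega), mkP_inv_val (allOK_spec h (by omega) (by omega))]

/-- follow a word. -/
noncomputable def trc (w m : ℕ) (Ts : List ℕ) (W : List ℕ) (i : ℕ) : ℕ :=
  fl (fun x T => tv w m T x) (mp (nth 0 Ts) W) i

theorem trc_nil (w m : ℕ) (Ts : List ℕ) (i : ℕ) : trc w m Ts [] i = i := rfl

theorem trc_cons (w m : ℕ) (Ts : List ℕ) (l : ℕ) (W : List ℕ) (i : ℕ) :
    trc w m Ts (l :: W) i = trc w m Ts W (tv w m (nth 0 Ts l) i) := rfl

/-- the letters of a word are in the range. -/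
noncomputable def inR (lo hi : ℕ) (W : List ℕ) : Bool := al (fun l => Nat.ble lo l && Nat.blt l hi) W

theorem inR_spec {lo hi : ℕ} {W : List ℕ} (h : inR lo hi W = true) : ∀ l ∈ W, lo ≤ l ∧ l < hi := by
  intro l hl
  have := al_spec h l hl
  rw [Bool.and_eq_true, Nat.ble_eq, Nat.blt_eq] at this
  exact this

theorem ev_val {w m N : ℕ} {Ts : List ℕ} {d ng : ℕ} (h : allOK w m N Ts d ng = true) :
    ∀ (W : List ℕ), (∀ l ∈ W, 2 * d ≤ l ∧ l < 2 * ng) → ∀ i : Fin N,
      (ev (YP w m N Ts d ng) W i).1 = trc w m Ts W i.1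
  | [], _, i => rfl
  | l :: W, hW, i => by
    rw [ev, Equiv.Perm.mul_apply, ev_val h W (fun l' hl' => hW l' (List.mem_cons_of_mem _ hl')), trc_cons,
      lt_val h (hW l List.mem_cons_self).1 (hW l List.mem_cons_self).2]

/-- two words have the same value. -/
noncomputable def eqT (w m N : ℕ) (Ts : List ℕ) (lo hi : ℕ) (W W' : List ℕ) : Bool :=
  inR lo hi W && inR lo hi W' && alN (fun i => Nat.beq (trc w m Ts W i) (trc w m Ts W' i)) N

theorem eqT_spec {w m N : ℕ} {Ts : List ℕ} {d ng : ℕ} (h : allOK w m N Ts d ng = true) {W W' : List ℕ}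
    (hW : eqT w m N Ts (2 * d) (2 * ng) W W' = true) :
    ev (YP w m N Ts d ng) W = ev (YP w m N Ts d ng) W' := by
  rw [eqT, Bool.and_eq_true, Bool.and_eq_true] at hW
  apply Equiv.ext
  intro i
  apply Fin.ext
  rw [ev_val h W (inR_spec hW.1.1), ev_val h W' (inR_spec hW.1.2)]
  exact Nat.eq_of_beq_eq_true (alN_spec hW.2 i.1 i.2)

theorem relT_spec {w m N : ℕ} {Ts : List ℕ} {d ng : ℕ} (h : allOK w m N Ts d ng = true) {W : List ℕ}
    (hW : eqT w m N Ts (2 * d) (2 * ng) W [] = true) : ev (YP w m N Ts d ng) W = 1 :=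
  eqT_spec h hW

/-- a word does not fix the point `i`. -/
noncomputable def neT (w m N : ℕ) (Ts : List ℕ) (lo hi : ℕ) (W : List ℕ) (i : ℕ) : Bool :=
  inR lo hi W && Nat.blt i N && !(Nat.beq (trc w m Ts W i) i)

theorem neT_spec {w m N : ℕ} {Ts : List ℕ} {d ng : ℕ} (h : allOK w m N Ts d ng = true) {W : List ℕ} {i : ℕ}
    (hW : neT w m N Ts (2 * d) (2 * ng) W i = true) : ev (YP w m N Ts d ng) W ≠ 1 := by
  rw [neT, Bool.and_eq_true, Bool.and_eq_true, Nat.blt_eq] at hW
  intro e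
  have h1 := ev_val h W (inR_spec hW.1.1) ⟨i, hW.1.2⟩
  rw [e] at h1
  have h2 : Nat.beq (trc w m Ts W i) i = true := by
    rw [Nat.beq_eq]; exact h1.symm
  rw [h2] at hW
  exact absurd hW.2 (by simp)

/-! ### words and homomorphisms -/

section hom
variable {Γ G : Type*} [Group Γ] [Group G]

theorem getD_map (φ : Γ →* G) (Y : List Γ) (k : ℕ) : (Y.map φ).getD k 1 = φ (Y.getD k 1) := by
  by_cases h : k < Y.length
  · rw [List.getD_eq_getElem _ _ h, List.getD_eq_getElem _ _ (by rw [List.length_map]; exact h), List.getElem_map]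
  · rw [List.getD_eq_default _ _ (not_lt.1 h), List.getD_eq_default _ _ (by rw [List.length_map]; exact not_lt.1 h),
      map_one]

theorem lt_map (φ : Γ →* G) (Y : List Γ) (l : ℕ) : lt (Y.map φ) l = φ (lt Y l) := by
  rcases Nat.even_or_odd' l with ⟨k, rfl | rfl⟩
  · rw [lt_even, lt_even, getD_map]
  · rw [lt_odd, lt_odd, getD_map, map_inv]

theorem ev_map (φ : Γ →* G) (Y : List Γ) (W : List ℕ) : ev (Y.map φ) W = φ (ev Y W) := by
  induction W with
  | nil => simp [ev]
  | cons l r ih => rw [ev, ev, map_mul, ih, lt_map]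

theorem Kd_map (φ : Γ →* G) (Y : List Γ) (ng d : ℕ) : (Kd Y ng d).map φ = Kd (Y.map φ) ng d := by
  rw [Kd, Kd, MonoidHom.map_closure]
  congr 1
  ext g
  constructor
  · rintro ⟨_, ⟨k, h1, h2, rfl⟩, rfl⟩
    exact ⟨k, h1, h2, (getD_map φ Y k).symm⟩
  · rintro ⟨k, h1, h2, rfl⟩
    exact ⟨_, ⟨k, h1, h2, rfl⟩, (getD_map φ Y k).symm⟩

theorem exists_sub_list (H : Subgroup G) : ∀ (L : List G), (∀ y ∈ L, y ∈ H) → ∃ L' : List H, L'.map H.subtype = L
  | [], _ => ⟨[], rfl⟩
  | y :: L, h => by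
    obtain ⟨L', hL'⟩ := exists_sub_list H L (fun y' hy' => h y' (List.mem_cons_of_mem _ hy'))
    exact ⟨⟨y, h y List.mem_cons_self⟩ :: L', by rw [List.map_cons, hL']; rfl⟩

/-- a subgroup is normal if conjugation by monoid generators maps its generators into it. -/
theorem normal_of_gens (X T : Set G) (hT : Submonoid.closure T = ⊤)
    (h : ∀ t ∈ T, ∀ x ∈ X, t * x * t⁻¹ ∈ closure X) : (closure X).Normal := by
  have h1 : ∀ t ∈ T, ∀ k ∈ closure X, t * k * t⁻¹ ∈ closure X := by
    intro t ht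
    have h2 : closure X ≤ (closure X).comap (MulAut.conj t).toMonoidHom := by
      rw [closure_le]
      intro x hx
      exact h t ht x hx
    intro k hk
    exact h2 hk
  have h3 : ∀ g : G, ∀ k ∈ closure X, g * k * g⁻¹ ∈ closure X := by
    intro g
    have hg : g ∈ Submonoid.closure T := by rw [hT]; trivial
    induction hg using Submonoid.closure_induction with
    | mem t ht => exact h1 t ht
    | one => intro k hk; simpa using hk
    | mul a b _ _ iha ihb =>
      intro k hk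
      have e : a * b * k * (a * b)⁻¹ = a * (b * k * b⁻¹) * a⁻¹ := by group
      rw [e]
      exact iha _ (ihb k hk)
  exact ⟨fun k hk g => h3 g k hk⟩

end hom

end Cfsg.Agent.Lib.Helper43.PT
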