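import Cfsg.Agent.Lib.Helper88.TCCore
import Cfsg.Agent.Lib.Helper9.SchurTriv

/-!
Bounding stem extensions by presentations whose relators lift automatically: if the kernel of a central extension has
order prime to `p`, every element `y` with `y ^ p = 1` has a unique lift with the same property, and relations of the
form `a b a⁻¹ = c` between such elements hold for the lifts.
-/

set_option autoImplicit false

namespace Cfsg.Agent.Lib.Helper43.SP
open Cfsg.Agent.Lib.Helper88.TC Subgroup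
open scoped commutatorElement

variable {Γ G : Type*} [Group Γ] [Group G]

/-- a central extension whose kernel has no `p`-torsion and is `p`-divisible. -/
structure CData (σ : Γ →* G) (p : ℕ) : Prop where
  surj : Function.Surjective σ
  cen : σ.ker ≤ center Γ
  tors : ∀ a ∈ σ.ker, a ^ p = 1 → a = 1
  root : ∀ a ∈ σ.ker, ∃ b ∈ σ.ker, b ^ p = a

theorem CData.of_coprime {σ : Γ →* G} {p : ℕ} (h1 : Function.Surjective σ) (h2 : σ.ker ≤ center Γ)
    (h3 : (Nat.card σ.ker).Coprime p) : CData σ p where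
  surj := h1
  cen := h2
  tors := by
    intro a ha h
    have e : (powCoprime h3) ⟨a, ha⟩ = (powCoprime h3) 1 := by
      rw [powCoprime_apply, powCoprime_apply, one_pow]
      exact Subtype.ext h
    exact congrArg Subtype.val ((powCoprime h3).injective e)
  root := by
    intro a ha
    obtain ⟨b, hb⟩ := (powCoprime h3).surjective ⟨a, ha⟩
    rw [powCoprime_apply] at hb
    exact ⟨b.1, b.2, congrArg Subtype.val hb⟩

namespace CData
variable {σ : Γ →* G} {p : ℕ} (D : CData σ p)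
include D

theorem uniq {u v : Γ} (hu : u ^ p = 1) (hv : v ^ p = 1) (h : σ u = σ v) : u = v := by
  have ha : v⁻¹ * u ∈ σ.ker := by rw [MonoidHom.mem_ker, map_mul, map_inv, h, inv_mul_cancel]
  have hc : Commute v (v⁻¹ * u) := (mem_center_iff.1 (D.cen ha) v)
  have e : u = v * (v⁻¹ * u) := by group
  have h2 : (v⁻¹ * u) ^ p = 1 := by
    have := hc.mul_pow p
    rw [← e, hu, hv, one_mul] at this
    exact this.symm
  have := D.tors _ ha h2
  rw [e, this, mul_one]

theorem exists_lift {y : G} (hy : y ^ p = 1) : ∃ x : Γ, σ x = y ∧ x ^ p = 1 := by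
  obtain ⟨x, rfl⟩ := D.surj y
  have hx : (x ^ p)⁻¹ ∈ σ.ker := by rw [MonoidHom.mem_ker, map_inv, map_pow, hy, inv_one]
  obtain ⟨b, hb, e⟩ := D.root _ hx
  refine ⟨x * b, by rw [map_mul, MonoidHom.mem_ker.1 hb, mul_one], ?_⟩
  have hc : Commute x b := (mem_center_iff.1 (D.cen hb) x)
  rw [hc.mul_pow, e, mul_inv_cancel]

theorem conj_valid {A B C : Γ} (hB : B ^ p = 1) (hC : C ^ p = 1) (h : σ (A * B * A⁻¹ * C) = 1) :
    A * B * A⁻¹ * C = 1 := by
  have h1 : (A * B * A⁻¹) ^ p = 1 := by rw [conj_pow, hB, mul_one, mul_inv_cancel]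
  have h2 : (C⁻¹) ^ p = 1 := by rw [inv_pow, hC, inv_one]
  have h3 : σ (A * B * A⁻¹) = σ C⁻¹ := by
    rw [map_mul] at h
    rw [map_inv]
    exact eq_inv_of_mul_eq_one_left h
  rw [D.uniq h1 h2 h3, inv_mul_cancel]

end CData

theorem prod_valid {σ : Γ →* G} (D : CData σ 2) {A B C : Γ} (hA : A ^ 2 = 1) (hB : B ^ 2 = 1) (hC : C ^ 2 = 1)
    (h : σ (A * B * C) = 1) : A * B * C = 1 := by
  have a2 : σ A * σ A = 1 := by rw [← map_mul, ← pow_two, hA, map_one]
  have b2 : σ B * σ B = 1 := by rw [← map_mul, ← pow_two, hB, map_one]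
  have c2 : σ C * σ C = 1 := by rw [← map_mul, ← pow_two, hC, map_one]
  have h' : σ A * σ B * σ C = 1 := by rw [← map_mul, ← map_mul]; exact h
  have e1 : σ A * σ B = σ C := by
    calc σ A * σ B = σ A * σ B * (σ C * σ C) := by rw [c2, mul_one]
      _ = (σ A * σ B * σ C) * σ C := by group
      _ = σ C := by rw [h', one_mul]
  have e2 : σ A * σ B * (σ A * σ B) = 1 := by rw [e1, c2]
  have e3 : σ (A * B * A⁻¹) = σ B := by
    have ia : (σ A)⁻¹ = σ A := inv_eq_of_mul_eq_one_left a2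
    rw [map_mul, map_mul, map_inv, ia]
    calc σ A * σ B * σ A = σ A * σ B * σ A * (σ B * σ B) := by rw [b2, mul_one]
      _ = (σ A * σ B * (σ A * σ B)) * (σ B) := by group
      _ = σ B := by rw [e2, one_mul]
  have h1 : (A * B * A⁻¹) ^ 2 = 1 := by rw [conj_pow, hB, mul_one, mul_inv_cancel]
  have e4 : A * B * A⁻¹ = B := D.uniq h1 hB e3
  have hc : Commute A B := by
    show A * B = B * A
    calc A * B = A * B * A⁻¹ * A := by group
      _ = B * A := by rw [e4]
  have h2 : (A * B) ^ 2 = 1 := by rw [hc.mul_pow, hA, hB, one_mul]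
  have h3 : (C⁻¹) ^ 2 = 1 := by rw [inv_pow, hC, inv_one]
  have h4 : σ (A * B) = σ C⁻¹ := by
    rw [map_mul] at h
    rw [map_inv]
    exact eq_inv_of_mul_eq_one_left h
  rw [D.uniq h2 h3 h4, inv_mul_cancel]

/-! ### lists of lifts -/

/-- `Z` is a list of lifts of `Y` consisting of elements killed by `p`. -/
structure Lifts (σ : Γ →* G) (p : ℕ) (Y : List G) (Z : List Γ) : Prop where
  img : ∀ k, σ (Z.getD k 1) = Y.getD k 1
  pw : ∀ k, (Z.getD k 1) ^ p = 1

theorem exists_lifts {σ : Γ →* G} {p : ℕ} (D : CData σ p) :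
    ∀ Y : List G, (∀ y ∈ Y, y ^ p = 1) → ∃ Z : List Γ, Lifts σ p Y Z
  | [], _ => ⟨[], by intro k; simp, by intro k; simp⟩
  | y :: Y, h => by
    obtain ⟨Z, hZ⟩ := exists_lifts D Y (fun y' hy' => h y' (List.mem_cons_of_mem _ hy'))
    obtain ⟨x, hx, hx'⟩ := D.exists_lift (h y List.mem_cons_self)
    refine ⟨x :: Z, ?_, ?_⟩
    · intro k
      cases k with
      | zero => simpa using hx
      | succ k => simpa using hZ.img k
    · intro k
      cases k with
      | zero => simpa using hx'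
      | succ k => simpa using hZ.pw k

namespace Lifts
variable {σ : Γ →* G} {p : ℕ} {Y : List G} {Z : List Γ} (L : Lifts σ p Y Z)
include L

theorem img_lt (l : ℕ) : σ (lt Z l) = lt Y l := by
  rcases Nat.even_or_odd' l with ⟨k, rfl | rfl⟩
  · rw [lt_even, lt_even, L.img]
  · rw [lt_odd, lt_odd, map_inv, L.img]

theorem pw_lt (l : ℕ) : (lt Z l) ^ p = 1 := by
  rcases Nat.even_or_odd' l with ⟨k, rfl | rfl⟩
  · rw [lt_even, L.pw]
  · rw [lt_odd, inv_pow, L.pw, inv_one]

theorem img_ev (W : List ℕ) : σ (ev Z W) = ev Y W := by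
  induction W with
  | nil => simp [ev]
  | cons l r ih => rw [ev, ev, map_mul, ih, L.img_lt]

/-- the lifts generate a stem extension. -/
theorem Kd_top (hσ : Cfsg.IsStemExtension σ) {ng : ℕ} (hY : Kd Y ng 0 = ⊤) : Kd Z ng 0 = ⊤ := by
  set O := Kd Z ng 0 with hO
  have h1 : ∀ g : Γ, ∃ o ∈ O, σ o = σ g := by
    have h2 : Kd Y ng 0 ≤ O.map σ := by
      rw [Kd, closure_le]
      rintro g ⟨k, h1, h2, rfl⟩
      exact ⟨Z.getD k 1, getD_mem_Kd Z h1 h2, L.img k⟩
    intro g
    have h3 : σ g ∈ O.map σ := h2 (by rw [hY]; exact mem_top _)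
    obtain ⟨o, ho, e⟩ := h3
    exact ⟨o, ho, e⟩
  have h2 : ∀ g : Γ, ∃ o ∈ O, ∃ a ∈ center Γ, g = o * a := by
    intro g
    obtain ⟨o, ho, e⟩ := h1 g
    refine ⟨o, ho, o⁻¹ * g, hσ.2.1 ?_, by group⟩
    rw [MonoidHom.mem_ker, map_mul, map_inv, e, inv_mul_cancel]
  have h3 : commutator Γ ≤ O := by
    rw [commutator_def, commutator_le]
    intro g _ h _
    obtain ⟨o, ho, a, ha, rfl⟩ := h2 g
    obtain ⟨o', ho', a', ha', rfl⟩ := h2 h
    have e : ⁅o * a, o' * a'⁆ = ⁅o, o'⁆ := by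
      have ca : ∀ x, x * a = a * x := fun x => mem_center_iff.1 ha x
      have ca' : ∀ x, x * a' = a' * x := fun x => mem_center_iff.1 ha' x
      rw [commutatorElement_def, commutatorElement_def]
      calc o * a * (o' * a') * (o * a)⁻¹ * (o' * a')⁻¹
          = o * (a * o') * a' * a⁻¹ * o⁻¹ * a'⁻¹ * o'⁻¹ := by group
        _ = o * (o' * a) * a' * a⁻¹ * o⁻¹ * a'⁻¹ * o'⁻¹ := by rw [ca o']
        _ = o * o' * (a * a') * a⁻¹ * o⁻¹ * a'⁻¹ * o'⁻¹ := by group
        _ = o * o' * (a' * a) * a⁻¹ * o⁻¹ * a'⁻¹ * o'⁻¹ := by rw [ca' a]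
        _ = o * o' * (a' * o⁻¹) * a'⁻¹ * o'⁻¹ := by group
        _ = o * o' * (o⁻¹ * a') * a'⁻¹ * o'⁻¹ := by rw [ca' o⁻¹]
        _ = o * o' * o⁻¹ * o'⁻¹ := by group
    rw [e]
    rw [commutatorElement_def]
    exact O.mul_mem (O.mul_mem (O.mul_mem ho ho') (O.inv_mem ho)) (O.inv_mem ho')
  rw [eq_top_iff]
  intro g _
  obtain ⟨o, ho, e⟩ := h1 g
  have h4 : o⁻¹ * g ∈ σ.ker := by rw [MonoidHom.mem_ker, map_mul, map_inv, e, inv_mul_cancel]
  have h5 : g = o * (o⁻¹ * g) := by group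
  rw [h5]
  exact O.mul_mem ho (h3 (hσ.2.2 h4))

theorem card_le (hσ : Cfsg.IsStemExtension σ) {ng N : ℕ} (hY : Kd Y ng 0 = ⊤)
    (h : Nat.card (Kd Z ng 0) ≤ N) : Nat.card Γ ≤ N := by
  rw [L.Kd_top hσ hY, Subgroup.card_top] at h
  exact h

end Lifts

/-! ### shapes of relators -/

/-- relators for `p = 3`: conjugation relations and cubes. -/
noncomputable def shp3 : List ℕ → Bool
  | [_, a', _, a] => Nat.beq a' (fp a)
  | [a, b, c] => Nat.beq a b && Nat.beq b c
  | _ => false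

/-- relators for `p = 2`: conjugation relations, products of three and squares. -/
noncomputable def shp2 : List ℕ → Bool
  | [_, a', _, a] => Nat.beq a' (fp a)
  | [_, _, _] => true
  | [a, b] => Nat.beq a b
  | _ => false

theorem valid3 {σ : Γ →* G} (D : CData σ 3) {Y : List G} {Z : List Γ} (L : Lifts σ 3 Y Z) {W : List ℕ}
    (hs : shp3 W = true) (h : ev Y W = 1) : ev Z W = 1 := by
  rw [← L.img_ev] at h
  match W, hs, h with
  | [c, a', b, a], hs, h =>
    have e : a' = fp a := Nat.eq_of_beq_eq_true hs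
    subst e
    simp only [ev, one_mul, lt_fp] at h ⊢
    exact D.conj_valid (L.pw_lt b) (L.pw_lt c) h
  | [a, b, c], hs, h =>
    simp only [shp3, Bool.and_eq_true] at hs
    have e1 : a = b := Nat.eq_of_beq_eq_true hs.1
    have e2 : b = c := Nat.eq_of_beq_eq_true hs.2
    subst e1 e2
    simp only [ev, one_mul]
    rw [← pow_two, ← pow_succ]
    exact L.pw_lt a

theorem valid2 {σ : Γ →* G} (D : CData σ 2) {Y : List G} {Z : List Γ} (L : Lifts σ 2 Y Z) {W : List ℕ}
    (hs : shp2 W = true) (h : ev Y W = 1) : ev Z W = 1 := by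
  rw [← L.img_ev] at h
  match W, hs, h with
  | [c, a', b, a], hs, h =>
    have e : a' = fp a := Nat.eq_of_beq_eq_true hs
    subst e
    simp only [ev, one_mul, lt_fp] at h ⊢
    exact D.conj_valid (L.pw_lt b) (L.pw_lt c) h
  | [c, b, a], _, h =>
    simp only [ev, one_mul] at h ⊢
    exact prod_valid D (L.pw_lt a) (L.pw_lt b) (L.pw_lt c) h
  | [a, b], hs, h =>
    have e1 : a = b := Nat.eq_of_beq_eq_true hs
    subst e1
    simp only [ev, one_mul]
    rw [← pow_two]
    exact L.pw_lt a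

end Cfsg.Agent.Lib.Helper43.SP
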