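import Cfsg.Agent.Lib.Helper43.SchurPres
import Cfsg.Agent.Lib.Helper43.PermTab

/-!
Stem extensions and presentations on elements of order five.
-/

set_option autoImplicit false

namespace Cfsg.Agent.Lib.Helper43.SP
open Cfsg Cfsg.Agent.Lib.Helper88.TC Subgroup
open scoped commutatorElement

variable {Γ G : Type*} [Group Γ] [Group G]

/-- the lifts generate a stem extension (any level). -/
theorem Lifts.Kd_top' {σ : Γ →* G} {p : ℕ} {Y : List G} {Z : List Γ} (L : Lifts σ p Y Z)
    (hσ : Cfsg.IsStemExtension σ) {ng d : ℕ} (hY : Kd Y ng d = ⊤) : Kd Z ng d = ⊤ := by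
  set O := Kd Z ng d with hO
  have h1 : ∀ g : Γ, ∃ o ∈ O, σ o = σ g := by
    have h2 : Kd Y ng d ≤ O.map σ := by
      rw [Kd, closure_le]
      rintro g ⟨k, h1, h2, rfl⟩
      exact ⟨Z.getD k 1, getD_mem_Kd Z h1 h2, L.img k⟩
    intro g
    have h3 : σ g ∈ O.map σ := h2 (by rw [hY]; exact mem_top _)
    obtain ⟨o, ho, e⟩ := h3
    exact ⟨o, ho, e⟩
  have h2 : ∀ g : Γ, ∃ o ∈ O, ∃ a ∈ center Γ, g = o * a := by
    intro g
    obtain ⟨o, ho, e⟩ := h1 g
    refine ⟨o, ho, o⁻¹ * g, hσ.2.1 ?_, by group⟩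
    rw [MonoidHom.mem_ker, map_mul, map_inv, e, inv_mul_cancel]
  have h3 : commutator Γ ≤ O := by
    rw [commutator_def, commutator_le]
    intro g _ h _
    obtain ⟨o, ho, a, ha, rfl⟩ := h2 g
    obtain ⟨o', ho', a', ha', rfl⟩ := h2 h
    have e : ⁅o * a, o' * a'⁆ = ⁅o, o'⁆ := by
      have ca : ∀ x, x * a = a * x := fun x => mem_center_iff.1 ha x
      have ca' : ∀ x, x * a' = a' * x := fun x => mem_center_iff.1 ha' x
      rw [commutatorElement_def, commutatorElement_def]
      calc o * a * (o' * a') * (o * a)⁻¹ * (o' * a')⁻¹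
          = o * (a * o') * a' * a⁻¹ * o⁻¹ * a'⁻¹ * o'⁻¹ := by group
        _ = o * (o' * a) * a' * a⁻¹ * o⁻¹ * a'⁻¹ * o'⁻¹ := by rw [ca o']
        _ = o * o' * (a * a') * a⁻¹ * o⁻¹ * a'⁻¹ * o'⁻¹ := by group
        _ = o * o' * (a' * a) * a⁻¹ * o⁻¹ * a'⁻¹ * o'⁻¹ := by rw [ca' a]
        _ = o * o' * (a' * o⁻¹) * a'⁻¹ * o'⁻¹ := by group
        _ = o * o' * (o⁻¹ * a') * a'⁻¹ * o'⁻¹ := by rw [ca' o⁻¹]
        _ = o * o' * o⁻¹ * o'⁻¹ := by group
    rw [e]
    rw [commutatorElement_def]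
    exact O.mul_mem (O.mul_mem (O.mul_mem ho ho') (O.inv_mem ho)) (O.inv_mem ho')
  rw [eq_top_iff]
  intro g _
  obtain ⟨o, ho, e⟩ := h1 g
  have h4 : o⁻¹ * g ∈ σ.ker := by rw [MonoidHom.mem_ker, map_mul, map_inv, e, inv_mul_cancel]
  have h5 : g = o * (o⁻¹ * g) := by group
  rw [h5]
  exact O.mul_mem ho (h3 (hσ.2.2 h4))

/-- relators for `p = 5`: conjugation relations and fifth powers. -/
noncomputable def shp5 : List ℕ → Bool
  | [_, a', _, a] => Nat.beq a' (fp a)
  | [c, c', a', b, a] => Nat.beq c c' && (Nat.beq a' (fp a) || (Nat.beq c' a' && Nat.beq a' b && Nat.beq b a))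
  | _ => false

theorem valid5 {σ : Γ →* G} (D : CData σ 5) {Y : List G} {Z : List Γ} (L : Lifts σ 5 Y Z) {W : List ℕ}
    (hs : shp5 W = true) (h : ev Y W = 1) : ev Z W = 1 := by
  rw [← L.img_ev] at h
  match W, hs, h with
  | [c, a', b, a], hs, h =>
    have e : a' = fp a := Nat.eq_of_beq_eq_true hs
    subst e
    simp only [ev, one_mul, lt_fp] at h ⊢
    exact D.conj_valid (L.pw_lt b) (L.pw_lt c) h
  | [c, c', a', b, a], hs, h =>
    simp only [shp5, Bool.and_eq_true, Bool.or_eq_true] at hs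
    have e0 : c = c' := Nat.eq_of_beq_eq_true hs.1
    subst e0
    rcases hs.2 with h1 | h1
    · have e : a' = fp a := Nat.eq_of_beq_eq_true h1
      subst e
      simp only [ev, one_mul, lt_fp] at h ⊢
      rw [mul_assoc _ (lt Z c) (lt Z c)] at h ⊢
      refine D.conj_valid (L.pw_lt b) ?_ h
      rw [← pow_two, ← pow_mul, mul_comm, pow_mul, L.pw_lt c, one_pow]
    · have e1 : c = a' := Nat.eq_of_beq_eq_true h1.1.1
      have e2 : a' = b := Nat.eq_of_beq_eq_true h1.1.2
      have e3 : b = a := Nat.eq_of_beq_eq_true h1.2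
      subst e1 e2 e3
      simp only [ev, one_mul]
      have := L.pw_lt c
      rw [← this]
      simp only [pow_succ, pow_zero, one_mul]

theorem card_eq_card_mul_ker (σ : Γ →* G) (hσ : Function.Surjective σ) :
    Nat.card Γ = Nat.card G * Nat.card σ.ker := by
  rw [Subgroup.card_eq_card_quotient_mul_card_subgroup σ.ker,
    Nat.card_congr (QuotientGroup.quotientKerEquivOfSurjective σ hσ).toEquiv]

theorem pow_index_zpowers (σ : Γ →* G) (hσ : IsStemExtension σ) [Finite Γ] (x : G) :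
    ∀ z ∈ σ.ker, z ^ (zpowers x).index = 1 := by
  obtain ⟨X, rfl⟩ := hσ.1 x
  have := Cfsg.Agent.Lib.Helper9.pow_index_eq_one σ hσ {X} ⊥ (by
    intro x _ d hd
    rw [mem_bot] at hd
    subst hd
    simp) (by
    intro x hx y hy
    rw [Set.mem_singleton_iff] at hx hy
    subst hx; subst hy
    simp) (by
    intro d hd _
    exact mem_bot.1 hd)
  rwa [Set.image_singleton, ← zpowers_eq_closure] at this

/-- the order of the kernel of a stem extension is prime to `p` if a Sylow `p`-subgroup is cyclic of order `p`. -/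
theorem coprime_ker (σ : Γ →* G) (hσ : IsStemExtension σ) [Finite Γ] {p : ℕ} (hp : p.Prime) (x : G)
    (hx : ¬ p ∣ (zpowers x).index) : (Nat.card σ.ker).Coprime p := by
  have : Fact p.Prime := ⟨hp⟩
  rw [Nat.coprime_comm, Nat.Prime.coprime_iff_not_dvd hp]
  intro h
  obtain ⟨z, hz⟩ := exists_prime_orderOf_dvd_card' p h
  have h1 := pow_index_zpowers σ hσ x z.1 z.2
  have h2 : orderOf z.1 = p := by rw [Subgroup.orderOf_coe, hz]
  exact hx (h2 ▸ orderOf_dvd_of_pow_eq_one h1)

/-- the upper bound for stem extensions from a presentation on elements of order five. -/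
theorem bound5 (σ : Γ →* G) (hσ : IsStemExtension σ) [Finite Γ] (Y : List G) {ng d : ℕ} (hY : Kd Y ng d = ⊤)
    (h5 : ∀ y ∈ Y, y ^ 5 = 1) (x : G) (hx : ¬ 5 ∣ (zpowers x).index) (rels : List (List ℕ))
    (hshape : ∀ W ∈ rels, shp5 W = true) (hrel : ∀ W ∈ rels, ev Y W = 1) (N : ℕ)
    (hTC : ∀ Z : List Γ, (∀ W ∈ rels, ev Z W = 1) → Nat.card (Kd Z ng d) ≤ N) : Nat.card Γ ≤ N := by
  have D := CData.of_coprime hσ.1 hσ.2.1 (coprime_ker σ hσ Nat.prime_five x hx)
  obtain ⟨Z, L⟩ := exists_lifts D Y h5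
  have h := hTC Z (fun W hW => valid5 D L (hshape W hW) (hrel W hW))
  rw [L.Kd_top' hσ hY, Subgroup.card_top] at h
  exact h

/-- a model of a stem extension with cyclic kernel of order six. -/
theorem stem_of_model {D : Type*} [Group D] [Finite D] (σ : D →* G) (hs : Function.Surjective σ)
    (hG : commutator G = ⊤) (S : Set D) (hS : closure S = ⊤) (h5 : ∀ z ∈ S, z ^ 5 = 1)
    (hcard : Nat.card D ≤ 6 * Nat.card G) (c : D) (hc : σ c = 1) (hc2 : c ^ 2 ≠ 1) (hc3 : c ^ 3 ≠ 1)
    (hc6 : c ^ 6 = 1) (hcomm : ∀ z ∈ S, c * z = z * c) :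
    IsStemExtension σ ∧ Nonempty (σ.ker ≃* Multiplicative (ZMod 6)) := by
  have hGf : Finite G := Finite.of_surjective σ hs
  have ho : orderOf c = 6 := by
    have h1 : orderOf c ∣ 6 := orderOf_dvd_of_pow_eq_one hc6
    have h2 : orderOf c ≤ 6 := Nat.le_of_dvd (by norm_num) h1
    have h3 := pow_orderOf_eq_one c
    interval_cases h : orderOf c
    · norm_num at h1
    · rw [pow_one] at h3; rw [h3, one_pow] at hc2; exact absurd rfl hc2
    · exact absurd h3 hc2
    · exact absurd h3 hc3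
    · norm_num at h1
    · norm_num at h1
    · rfl
  have hk : Nat.card σ.ker ≤ 6 := by
    have h1 := card_eq_card_mul_ker σ hs
    rw [h1, mul_comm 6] at hcard
    exact Nat.le_of_mul_le_mul_left hcard Nat.card_pos
  have hle : zpowers c ≤ σ.ker := by
    rw [zpowers_le]; exact hc
  have hz : zpowers c = σ.ker := by
    apply Subgroup.eq_of_le_of_card_ge hle
    rw [Nat.card_zpowers, ho]; exact hk
  have hk6 : Nat.card σ.ker = 6 := by rw [← hz, Nat.card_zpowers, ho]
  have hcen : c ∈ center D := by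
    rw [mem_center_iff]
    intro g
    have hg : g ∈ closure S := by rw [hS]; trivial
    have : Commute g c := by
      induction hg using closure_induction with
      | mem z hz => exact (hcomm z hz).symm
      | one => exact Commute.one_left c
      | mul a b _ _ iha ihb => exact iha.mul_left ihb
      | inv a _ iha => exact iha.inv_left
    exact this
  have hkc : σ.ker ≤ center D := by
    rw [← hz, zpowers_le]; exact hcen
  have hmap : (commutator D).map σ = ⊤ := by
    rw [commutator_def, Subgroup.map_commutator, ← MonoidHom.range_eq_map,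
      MonoidHom.range_eq_top.2 hs, ← commutator_def, hG]
  have hperf : commutator D = ⊤ := by
    rw [eq_top_iff, ← hS, closure_le]
    intro z hzS
    have h1 : σ z ∈ (commutator D).map σ := by rw [hmap]; trivial
    obtain ⟨k, hk', hkz⟩ := h1
    have ha : k⁻¹ * z ∈ σ.ker := by
      rw [MonoidHom.mem_ker, map_mul, map_inv, hkz, inv_mul_cancel]
    have ha6 : (k⁻¹ * z) ^ 6 = 1 := by
      have := pow_card_eq_one' (G := σ.ker) (x := ⟨_, ha⟩)
      rw [hk6] at this
      exact congrArg Subtype.val this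
    have hcm : Commute k (k⁻¹ * z) := mem_center_iff.1 (hkc ha) k
    have e : z = k * (k⁻¹ * z) := by group
    have e6 : z ^ 6 = k ^ 6 := by
      conv_lhs => rw [e]
      rw [hcm.mul_pow, ha6, mul_one]
    have e7 : z ^ 6 = z := by rw [pow_succ, h5 z hzS, one_mul]
    show z ∈ commutator D
    rw [← e7, e6]
    exact pow_mem hk' 6
  refine ⟨⟨hs, hkc, by rw [hperf]; exact le_top⟩, ?_⟩
  have hcyc : IsCyclic σ.ker := by
    apply isCyclic_of_orderOf_eq_card (⟨c, hc⟩ : σ.ker)
    rw [hk6, ← ho]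
    exact Subgroup.orderOf_mk c hc
  have hZ : Nat.card (Multiplicative (ZMod 6)) = 6 := by
    rw [Nat.card_eq_fintype_card]; rfl
  exact ⟨mulEquivOfCyclicCardEq (by rw [hk6, hZ])⟩

end Cfsg.Agent.Lib.Helper43.SP
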