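import Mathlib

set_option autoImplicit false

namespace Cfsg.Agent.Lib.Helper43

open Matrix

section

variable {F : Type*} [Field F] [Fintype F] {n : ℕ}

/-- The fixed space of a matrix. -/
def fixSpace (X : Matrix (Fin n) (Fin n) F) : Submodule F (Fin n → F) where
  carrier := {v | X *ᵥ v = v}
  add_mem' := by
    intro a b ha hb
    simp only [Set.mem_ofPred_eq] at ha hb ⊢
    rw [Matrix.mulVec_add, ha, hb]
  zero_mem' := by simp
  smul_mem' := by
    intro c a ha
    simp only [Set.mem_ofPred_eq] at ha ⊢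
    rw [Matrix.mulVec_smul, ha]

omit [Fintype F] in
theorem mem_fixSpace {X : Matrix (Fin n) (Fin n) F} {v : Fin n → F} :
    v ∈ fixSpace X ↔ X *ᵥ v = v := Iff.rfl

/-- Orbit counting for a matrix of prime order acting on an invariant subspace. -/
theorem card_modEq_card_inf_fixSpace (X : Matrix (Fin n) (Fin n) F) (r : ℕ) [Fact r.Prime]
    (hX : X ^ r = 1) (W : Submodule F (Fin n → F)) (hW : ∀ w ∈ W, X *ᵥ w ∈ W) :
    Nat.card W ≡ Nat.card ↥(W ⊓ fixSpace X) [MOD r] := by
  classical
  let g : Function.End W := fun w => ⟨X *ᵥ w.1, hW w.1 w.2⟩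
  have hg : ∀ (k : ℕ) (w : W), ((g ^ k) w).1 = (X ^ k) *ᵥ w.1 := by
    intro k
    induction k with
    | zero =>
      intro w
      rw [pow_zero, pow_zero, Matrix.one_mulVec]
      rfl
    | succ k ih =>
      intro w
      rw [pow_succ, pow_succ]
      change ((g ^ k) (g w)).1 = _
      rw [ih, ← Matrix.mulVec_mulVec]
  have hgr : g ^ r ^ 1 = 1 := by
    funext w
    apply Subtype.ext
    rw [pow_one, hg, hX, Matrix.one_mulVec]
    rfl
  have h1 := Equiv.Perm.card_fixedPoints_modEq hgr
  rw [← Nat.card_eq_fintype_card, ← Nat.card_eq_fintype_card] at h1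
  have h2 : Nat.card (Function.fixedPoints g) = Nat.card ↥(W ⊓ fixSpace X) :=
    Nat.card_congr ⟨fun w => ⟨w.1.1, w.1.2, congrArg Subtype.val w.2⟩,
      fun w => ⟨⟨w.1, w.2.1⟩, Subtype.ext w.2.2⟩, fun w => rfl, fun w => rfl⟩
  rw [h2] at h1
  exact h1

/-- A matrix of prime order `r` over the field of order `q`, where `q` has order `n` modulo `r`,
acts irreducibly on the `n`-dimensional space. -/
theorem irreducible_of_orderOf (X : Matrix (Fin n) (Fin n) F) (r : ℕ) [Fact r.Prime]
    (hX : X ^ r = 1) (hX1 : X ≠ 1) (hn : 1 ≤ n)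
    (hi : orderOf ((Fintype.card F : ℕ) : ZMod r) = n)
    (W : Submodule F (Fin n → F)) (hW : ∀ w ∈ W, X *ᵥ w ∈ W) : W = ⊥ ∨ W = ⊤ := by
  set q := Fintype.card F with hq
  have key : ∀ W : Submodule F (Fin n → F), (∀ w ∈ W, X *ᵥ w ∈ W) →
      (q : ZMod r) ^ Module.finrank F W = (q : ZMod r) ^ Module.finrank F ↥(W ⊓ fixSpace X) := by
    intro W hW
    have h1 := card_modEq_card_inf_fixSpace X r hX W hW
    rw [Module.natCard_eq_pow_finrank (K := F) (V := ↥W),
      Module.natCard_eq_pow_finrank (K := F) (V := ↥(W ⊓ fixSpace X)),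
      Nat.card_eq_fintype_card, ← hq] at h1
    have h2 := (ZMod.natCast_eq_natCast_iff _ _ _).mpr h1
    push_cast at h2
    exact h2
  have hdim : Module.finrank F (Fin n → F) = n := by simp
  have hdich : ∀ W : Submodule F (Fin n → F), (q : ZMod r) ^ Module.finrank F W = 1 →
      W = ⊥ ∨ W = ⊤ := by
    intro W h
    have h1 := orderOf_dvd_of_pow_eq_one h
    rw [hi] at h1
    have h2 := Submodule.finrank_le W
    rw [hdim] at h2
    rcases Nat.eq_zero_or_pos (Module.finrank F W) with h0 | hpos
    · left; exact Submodule.finrank_eq_zero.mp h0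
    · right
      have h3 : Module.finrank F W = n := le_antisymm h2 (Nat.le_of_dvd hpos h1)
      exact Submodule.eq_top_of_finrank_eq (h3.trans hdim.symm)
  have hfix : fixSpace X = ⊥ := by
    have h1 := key ⊤ (fun w _ => Submodule.mem_top)
    have hqn : (q : ZMod r) ^ n = 1 := by
      have := pow_orderOf_eq_one (q : ZMod r)
      rwa [hi] at this
    rw [finrank_top, hdim, top_inf_eq, hqn] at h1
    rcases hdich _ h1.symm with h | h
    · exact h
    · exfalso
      apply hX1
      apply Matrix.toLin'.injective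
      apply LinearMap.ext
      intro v
      have : v ∈ fixSpace X := h ▸ Submodule.mem_top
      simpa using mem_fixSpace.mp this
  have h1 := key W hW
  rw [hfix, inf_bot_eq, finrank_bot, pow_zero] at h1
  exact hdich W h1

/-- The centralizer of an irreducible matrix: it is cyclic of order `q ^ n - 1`. -/
theorem centralizer_of_irreducible (x : GL (Fin n) F) (hn : 1 ≤ n)
    (hirr : ∀ W : Submodule F (Fin n → F), (∀ w ∈ W, (x : Matrix (Fin n) (Fin n) F) *ᵥ w ∈ W) →
      W = ⊥ ∨ W = ⊤) :
    IsCyclic ↥(Subgroup.centralizer ({x} : Set (GL (Fin n) F))) ∧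
      Nat.card ↥(Subgroup.centralizer ({x} : Set (GL (Fin n) F))) = Fintype.card F ^ n - 1 := by
  classical
  set X : Matrix (Fin n) (Fin n) F := (x : Matrix (Fin n) (Fin n) F) with hXdef
  set E := Subalgebra.centralizer F ({X} : Set (Matrix (Fin n) (Fin n) F)) with hE
  have hEmem : ∀ M, M ∈ E ↔ X * M = M * X := by
    intro M
    rw [hE, Subalgebra.mem_centralizer_iff]
    simp
  -- a nonzero vector
  let v₀ : Fin n → F := Pi.single ⟨0, hn⟩ 1
  have hv₀ : v₀ ≠ 0 := by
    intro h
    have := congrFun h ⟨0, hn⟩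
    simp [v₀] at this
  have hker : ∀ M ∈ E, ∀ v, v ≠ 0 → M *ᵥ v = 0 → M = 0 := by
    intro M hM v hv hMv
    have hinv : ∀ w ∈ LinearMap.ker (Matrix.toLin' M), X *ᵥ w ∈ LinearMap.ker (Matrix.toLin' M) := by
      intro w hw
      rw [LinearMap.mem_ker, Matrix.toLin'_apply] at hw ⊢
      rw [Matrix.mulVec_mulVec, ← (hEmem M).mp hM, ← Matrix.mulVec_mulVec, hw, Matrix.mulVec_zero]
    rcases hirr _ hinv with h | h
    · exfalso
      apply hv
      have : v ∈ LinearMap.ker (Matrix.toLin' M) := by
        rw [LinearMap.mem_ker, Matrix.toLin'_apply]; exact hMv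
      rw [h] at this
      exact (Submodule.mem_bot F).mp this
    · have h2 := LinearMap.ker_eq_top.mp h
      exact Matrix.toLin'.injective (by rw [h2, map_zero])
  -- every vector is `a v₀` for `a` in the algebra generated by `X`
  set A := Algebra.adjoin F ({X} : Set (Matrix (Fin n) (Fin n) F)) with hA
  have hXA : X ∈ A := Algebra.subset_adjoin (Set.mem_singleton X)
  let evL : Matrix (Fin n) (Fin n) F →ₗ[F] (Fin n → F) :=
    { toFun := fun M => M *ᵥ v₀
      map_add' := fun M M' => Matrix.add_mulVec M M' v₀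
      map_smul' := fun c M => Matrix.smul_mulVec c M v₀ }
  have hsurj : ∀ v, ∃ a ∈ A, a *ᵥ v₀ = v := by
    have h1 : (Subalgebra.toSubmodule A).map evL = ⊤ := by
      rcases hirr ((Subalgebra.toSubmodule A).map evL) (by
        rintro _ ⟨a, ha, rfl⟩
        refine ⟨X * a, A.mul_mem hXA ha, ?_⟩
        change (X * a) *ᵥ v₀ = X *ᵥ (a *ᵥ v₀)
        rw [Matrix.mulVec_mulVec]) with h | h
      · exfalso
        apply hv₀
        have : v₀ ∈ (Subalgebra.toSubmodule A).map evL := ⟨1, A.one_mem, Matrix.one_mulVec v₀⟩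
        rw [h] at this
        exact (Submodule.mem_bot F).mp this
      · exact h
    intro v
    have : v ∈ (Subalgebra.toSubmodule A).map evL := h1 ▸ Submodule.mem_top
    obtain ⟨a, ha, hav⟩ := this
    exact ⟨a, ha, hav⟩
  have hAE : ∀ a ∈ A, ∀ M ∈ E, a * M = M * a := by
    intro a ha M hM
    have h1 := Algebra.adjoin_le_centralizer_centralizer F ({X} : Set (Matrix (Fin n) (Fin n) F)) ha
    rw [Subalgebra.mem_centralizer_iff] at h1
    exact (h1 M hM).symm
  have hAleE : ∀ a ∈ A, a ∈ E := by
    intro a ha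
    rw [hEmem]
    have hXE : X ∈ E := (hEmem X).mpr rfl
    exact (hAE a ha X hXE).symm
  have hEA : ∀ M ∈ E, M ∈ A := by
    intro M hM
    obtain ⟨a, ha, hav⟩ := hsurj (M *ᵥ v₀)
    have h1 : M - a = 0 := hker (M - a) (E.sub_mem hM (hAleE a ha)) v₀ hv₀ (by
      rw [Matrix.sub_mulVec, hav, sub_self])
    rw [sub_eq_zero.mp h1]; exact ha
  have hcomm : ∀ M ∈ E, ∀ M' ∈ E, M * M' = M' * M := fun M hM M' hM' => hAE M (hEA M hM) M' hM'
  let _ : CommRing E := { (inferInstance : Ring E) with
    mul_comm := fun a b => Subtype.ext (hcomm a.1 a.2 b.1 b.2) }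
  have hnt : Nontrivial (Fin n → F) := ⟨⟨v₀, 0, hv₀⟩⟩
  have hdom : IsDomain E := by
    have h1 : NoZeroDivisors E := by
      refine ⟨fun {a b} hab => ?_⟩
      by_contra hcon
      push Not at hcon
      obtain ⟨ha, hb⟩ := hcon
      have hb' : b.1 *ᵥ v₀ ≠ 0 := by
        intro h
        exact hb (Subtype.ext (hker b.1 b.2 v₀ hv₀ h))
      apply ha
      apply Subtype.ext
      apply hker a.1 a.2 _ hb'
      rw [Matrix.mulVec_mulVec]
      have : a.1 * b.1 = 0 := congrArg Subtype.val hab
      rw [this, Matrix.zero_mulVec]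
    have h2 : Nontrivial E := by
      refine ⟨⟨1, 0, fun h => ?_⟩⟩
      have h3 : (1 : Matrix (Fin n) (Fin n) F) = 0 := congrArg Subtype.val h
      apply hv₀
      rw [← Matrix.one_mulVec v₀, h3, Matrix.zero_mulVec]
    exact NoZeroDivisors.to_isDomain E
  have hCmem : ∀ g : GL (Fin n) F, g ∈ Subgroup.centralizer ({x} : Set (GL (Fin n) F)) ↔
      (g : Matrix (Fin n) (Fin n) F) ∈ E := by
    intro g
    rw [Subgroup.mem_centralizer_iff, hEmem]
    constructor
    · intro h
      have := congrArg (fun u : GL (Fin n) F => (u : Matrix (Fin n) (Fin n) F)) (h x rfl)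
      simpa using this
    · intro h y hy
      rw [Set.mem_singleton_iff.mp hy]
      exact Units.ext h
  constructor
  · let φ : ↥(Subgroup.centralizer ({x} : Set (GL (Fin n) F))) →* E :=
      { toFun := fun g => ⟨(g.1 : Matrix (Fin n) (Fin n) F), (hCmem g.1).mp g.2⟩
        map_one' := rfl
        map_mul' := fun g h => rfl }
    apply isCyclic_of_injective_ringHom φ
    intro g h hgh
    apply Subtype.ext
    apply Units.ext
    exact congrArg Subtype.val hgh
  · -- the orbit map on `v₀` is a bijection onto the nonzero vectors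
    have hbij : Function.Bijective
        (fun g : ↥(Subgroup.centralizer ({x} : Set (GL (Fin n) F))) =>
          (⟨(g.1 : Matrix (Fin n) (Fin n) F) *ᵥ v₀, by
            intro h
            have h1 := hker _ ((hCmem g.1).mp g.2) v₀ hv₀ h
            have h2 := g.1.inv_mul
            rw [h1, mul_zero] at h2
            apply hv₀
            rw [← Matrix.one_mulVec v₀, ← h2, Matrix.zero_mulVec]⟩ : {v : Fin n → F // v ≠ 0})) := by
      constructor
      · intro g h hgh
        have h1 : (g.1 : Matrix (Fin n) (Fin n) F) *ᵥ v₀ = (h.1 : Matrix (Fin n) (Fin n) F) *ᵥ v₀ :=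
          congrArg Subtype.val hgh
        have h2 := hker _ (E.sub_mem ((hCmem g.1).mp g.2) ((hCmem h.1).mp h.2)) v₀ hv₀ (by
          rw [Matrix.sub_mulVec, h1, sub_self])
        apply Subtype.ext
        apply Units.ext
        exact sub_eq_zero.mp h2
      · rintro ⟨v, hv⟩
        obtain ⟨a, ha, hav⟩ := hsurj v
        have haE := hAleE a ha
        have hunit : IsUnit a := by
          rw [← Matrix.mulVec_injective_iff_isUnit]
          intro u u' huu
          by_contra hne
          have h1 := hker a haE (u - u') (sub_ne_zero.mpr hne) (by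
            rw [Matrix.mulVec_sub, huu, sub_self])
          apply hv
          rw [← hav, h1, Matrix.zero_mulVec]
        refine ⟨⟨hunit.unit, (hCmem _).mpr haE⟩, Subtype.ext hav⟩
    rw [Nat.card_congr (Equiv.ofBijective _ hbij)]
    have h1 : Nat.card {v : Fin n → F // v ≠ 0} = Nat.card (Fin n → F) - 1 := by
      rw [Nat.card_eq_fintype_card, Nat.card_eq_fintype_card, Fintype.card_subtype_compl,
        Fintype.card_subtype_eq]
    rw [h1, Nat.card_eq_fintype_card, Fintype.card_fun, Fintype.card_fin]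

end

end Cfsg.Agent.Lib.Helper43
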